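import Mathlib

/-!
Semicontinuity of the rank for matrices of polynomials.
-/

set_option autoImplicit false

namespace Cfsg.Agent.Lib.Hecke.Rank

open Polynomial

variable {K : Type*} [Field K] {m n : Type*} [Fintype m] [Fintype n]

theorem exists_fin_li {ι V : Type*} [Fintype ι] [AddCommGroup V] [Module K V] (v : ι → V) {k : ℕ}
    (hk : Module.finrank K (Submodule.span K (Set.range v)) = k) :
    ∃ a : Fin k → ι, LinearIndependent K (v ∘ a) := by
  classical
  obtain ⟨κ, a, ha, hsp, hli⟩ := exists_linearIndependent' K v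
  have : Finite κ := Finite.of_injective a ha
  have : Fintype κ := Fintype.ofFinite κ
  have h1 : Fintype.card κ = k := by
    rw [← hk, ← hsp, finrank_span_eq_card hli]
  let e : Fin k ≃ κ := (Fintype.equivFinOfCardEq h1).symm
  exact ⟨a ∘ e, by
    have := hli.comp e e.injective
    exact this⟩

/-- A matrix has an invertible minor of size its rank. -/
theorem exists_minor (A : Matrix m n K) :
    ∃ (r : Fin A.rank → m) (c : Fin A.rank → n), (A.submatrix r c).det ≠ 0 := by
  classical
  obtain ⟨r, hr⟩ : ∃ r : Fin A.rank → m, LinearIndependent K (A.row ∘ r) :=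
    exists_fin_li A.row (A.rank_eq_finrank_span_row).symm
  set A₁ : Matrix (Fin A.rank) n K := A.submatrix r id with hA₁
  have hrow : LinearIndependent K A₁.row := hr
  have h2 : A₁.rank = A.rank := by
    rw [hrow.rank_matrix]
    simp
  obtain ⟨c, hc⟩ : ∃ c : Fin A.rank → n, LinearIndependent K (A₁.col ∘ c) :=
    exists_fin_li A₁.col (A₁.rank_eq_finrank_span_cols.symm.trans h2)
  refine ⟨r, c, ?_⟩
  have h4 : LinearIndependent K (A₁.submatrix id c).col := hc
  have h5 := Matrix.linearIndependent_cols_iff_isUnit.1 h4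
  have h6 := (Matrix.isUnit_iff_isUnit_det _).1 h5
  exact h6.ne_zero

/-- The rank can only jump down on the zero set of a polynomial. -/
theorem exists_poly_of_rank (M : Matrix m n K[X]) (t₁ : K) :
    ∃ d : K[X], d ≠ 0 ∧ ∀ t, d.eval t ≠ 0 →
      (M.map (eval t₁)).rank ≤ (M.map (eval t)).rank := by
  classical
  obtain ⟨r, c, h⟩ := exists_minor (M.map (eval t₁))
  refine ⟨(M.submatrix r c).det, ?_, ?_⟩
  · intro h0
    apply h
    have := RingHom.map_det (evalRingHom t₁) (M.submatrix r c)
    rw [h0, map_zero] at this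
    rw [this]
    congr 1
  · intro t ht
    have h1 := RingHom.map_det (evalRingHom t) (M.submatrix r c)
    have h2 : (evalRingHom t) (M.submatrix r c).det ≠ 0 := ht
    rw [h1] at h2
    have h3 : ((M.map (eval t)).submatrix r c).det ≠ 0 := by
      intro h4
      apply h2
      rw [← h4]
      congr 1
    have h4 := Matrix.rank_of_isUnit _ ((Matrix.isUnit_iff_isUnit_det _).2 (isUnit_iff_ne_zero.2 h3))
    have h5 := Matrix.rank_submatrix_le (M.map (eval t)) r c
    rw [h4] at h5
    simpa using h5

/-- If two ranks add up to a constant on an infinite set, each is constant there. -/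
theorem rank_const {m' n' : Type*} [Fintype m'] [Fintype n']
    (M : Matrix m n K[X]) (M' : Matrix m' n' K[X]) (N : ℕ) (S : Set K) (hS : S.Infinite)
    (h : ∀ t ∈ S, (M.map (eval t)).rank + (M'.map (eval t)).rank = N) {t₁ t₂ : K}
    (h₁ : t₁ ∈ S) (h₂ : t₂ ∈ S) : (M.map (eval t₁)).rank = (M.map (eval t₂)).rank := by
  classical
  have key : ∀ {a b : K}, a ∈ S → b ∈ S → (M.map (eval a)).rank ≤ (M.map (eval b)).rank := by
    intro a b ha hb
    obtain ⟨d, hd, hd'⟩ := exists_poly_of_rank M a
    obtain ⟨e, he, he'⟩ := exists_poly_of_rank M' b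
    have hne : d * e ≠ 0 := mul_ne_zero hd he
    obtain ⟨c, hc, hc'⟩ := hS.exists_notMem_finset (d * e).roots.toFinset
    have hc2 : (d * e).eval c ≠ 0 := by
      intro h0
      apply hc'
      rw [Multiset.mem_toFinset, mem_roots hne]
      exact h0
    rw [eval_mul] at hc2
    have h1 := hd' c (left_ne_zero_of_mul hc2)
    have h2 := he' c (right_ne_zero_of_mul hc2)
    have h3 := h c hc
    have h4 := h b hb
    omega
  exact le_antisymm (key h₁ h₂) (key h₂ h₁)

end Cfsg.Agent.Lib.Hecke.Rank
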