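import Cfsg.Agent.Lib.ChevOrder.Cox
import Cfsg.Agent.Lib.Hecke.Rank

/-!
The generic Iwahori-Hecke algebra of a group with an exchange condition, built on the coordinate
space `W → R`, as the algebra generated by the left operators `T_s`: the left and right operators
commute, so their actions on the unit give a ring structure.
-/

set_option autoImplicit false
set_option linter.unusedSectionVars false

namespace Cfsg.Agent.Lib.Hecke.Algebra

open Cfsg.Agent.Lib.BNPair.CoxeterExchange Cfsg.Agent.Lib.ChevOrder.Cox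

variable {W ι : Type*} [Group W] {f : ι → W} {L : W → ℕ}

/-! ### Lengths -/

section Len

variable (hs : Setup f L)
include hs

theorem len_inv (w : W) : L w⁻¹ = L w := by
  have key : ∀ w, L w⁻¹ ≤ L w := by
    intro w
    obtain ⟨l, rfl, hl⟩ := hs.ex w
    rw [← pr_reverse hs]
    have := hs.le l.reverse
    rw [List.length_reverse] at this
    omega
  refine le_antisymm (key w) ?_
  simpa using key w⁻¹

theorem len_left (i : ι) (w : W) : L (f i * w) = L w + 1 ∨ L (f i * w) + 1 = L w :=
  len_f_mul_lt_or hs i w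

theorem len_right (i : ι) (w : W) : L (w * f i) = L w + 1 ∨ L (w * f i) + 1 = L w := by
  have h := len_left hs i w⁻¹
  have e : f i * w⁻¹ = (w * f i)⁻¹ := by rw [mul_inv_rev, inv_f hs]
  rw [e, len_inv hs, len_inv hs] at h
  exact h

theorem f_sq (i : ι) (w : W) : f i * (f i * w) = w := hs.cancel_left i w

theorem sq_f (i : ι) (w : W) : w * f i * f i = w := hs.cancel_right i w

theorem sq_f' (i : ι) (w : W) : w * (f i * f i) = w := by rw [← mul_assoc, sq_f hs]

/-- The exchange lemma for a pair of left and right multiplications. -/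
theorem eq_of_len (i j : ι) (z : W) (h1 : L z < L (f i * z)) (h2 : L z < L (z * f j))
    (h3 : L (f i * z * f j) ≤ L z) : f i * z = z * f j := by
  obtain ⟨l, rfl, hl⟩ := hs.ex z
  have h4 : L (pr f (l ++ [j])) = (l ++ [j]).length := by
    rw [pr_append, pr_singleton, List.length_append, List.length_singleton]
    have := len_right hs j (pr f l)
    omega
  have h5 : L (f i * pr f (l ++ [j])) < (l ++ [j]).length := by
    rw [pr_append, pr_singleton, List.length_append, List.length_singleton, ← mul_assoc]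
    omega
  obtain ⟨l₁, k, l₂, e, he⟩ := hs.exch i _ h4 h5
  rcases List.eq_nil_or_concat l₂ with rfl | ⟨m, a, rfl⟩
  · have e' : l ++ [j] = l₁ ++ [k] := e
    obtain ⟨rfl, h6⟩ := List.append_inj' e' (by simp)
    simp only [List.cons.injEq, and_true] at h6
    subst h6
    exact he
  · exfalso
    have e' : l ++ [j] = (l₁ ++ k :: m) ++ [a] := by
      rw [e]
      simp
    obtain ⟨rfl, -⟩ := List.append_inj' e' (by simp)
    have h6 : f i * pr f (l₁ ++ k :: m) = pr f (l₁ ++ m) := by
      rw [pr_append, pr_cons, ← mul_assoc, he, pr_append, mul_assoc, f_sq hs k]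
    rw [h6] at h1
    have h7 := hs.le (l₁ ++ m)
    simp only [List.length_append, List.length_cons] at hl h7
    omega

theorem len_mul_pr_le (x : W) (l : List ι) : L (x * pr f l) ≤ L x + l.length := by
  induction l generalizing x with
  | nil => simp
  | cons i l ih =>
    rw [pr_cons, ← mul_assoc, List.length_cons]
    have h1 := ih (x * f i)
    have h2 := hs.mul_right_le i x
    omega

theorem len_pr_tail {i : ι} {l : List ι} (h : L (pr f (i :: l)) = (i :: l).length) :
    L (pr f l) = l.length := by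
  rw [pr_cons, List.length_cons] at h
  have h1 := hs.mul_le i (pr f l)
  have h2 := hs.le l
  omega

theorem len_f (i : ι) : L (f i) = 1 := by
  have h1 := hs.le [i]
  have h2 := hs.ne i 1
  rw [pr_singleton, List.length_singleton] at h1
  rw [mul_one, len_one hs] at h2
  omega

end Len

/-! ### The basic operators -/

section Op

variable {R R' : Type*} [CommRing R] [CommRing R']

/-- The operator attached to a map `σ` on `W`. -/
def gop (L : W → ℕ) (σ : W → W) (t : R) : (W → R) →ₗ[R] (W → R) where
  toFun v z := if L (σ z) < L z then v (σ z) + (t - 1) * v z else t * v (σ z)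
  map_add' u v := by
    funext z
    simp only [Pi.add_apply]
    split_ifs <;> ring
  map_smul' c v := by
    funext z
    simp only [Pi.smul_apply, smul_eq_mul, RingHom.id_apply]
    split_ifs <;> ring

theorem gop_apply (σ : W → W) (t : R) (v : W → R) (z : W) :
    gop L σ t v z = if L (σ z) < L z then v (σ z) + (t - 1) * v z else t * v (σ z) := rfl

theorem map_gop (φ : R →+* R') (σ : W → W) (t : R) (v : W → R) :
    (fun z => φ (gop L σ t v z)) = gop L σ (φ t) (fun z => φ (v z)) := by
  funext z
  simp only [gop_apply]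
  split_ifs <;> simp

section Sigma

variable {σ : W → W} (h2 : ∀ z, σ (σ z) = z) (h1 : ∀ z, L (σ z) = L z + 1 ∨ L (σ z) + 1 = L z)
include h2 h1

variable [DecidableEq W]

theorem gop_single_up (t : R) {w : W} (hw : L w < L (σ w)) :
    gop L σ t (Pi.single w 1) = Pi.single (σ w) 1 := by
  have hne : σ w ≠ w := fun h => by rw [h] at hw; omega
  funext z
  rw [gop_apply]
  by_cases hz : z = σ w
  · subst hz
    rw [h2, if_pos hw]
    simp [hne]
  · have h3 : σ z ≠ w := fun h => hz (by rw [← h, h2])
    rw [Pi.single_eq_of_ne hz, Pi.single_eq_of_ne h3]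
    by_cases hzw : z = w
    · subst hzw
      rw [if_neg (by omega)]
      ring
    · rw [Pi.single_eq_of_ne hzw]
      split_ifs <;> ring

theorem gop_single_down (t : R) {w : W} (hw : L (σ w) < L w) :
    gop L σ t (Pi.single w 1) = t • Pi.single (σ w) 1 + (t - 1) • Pi.single w 1 := by
  have hne : σ w ≠ w := fun h => by rw [h] at hw; omega
  funext z
  rw [gop_apply]
  simp only [Pi.add_apply, Pi.smul_apply, smul_eq_mul]
  by_cases hz : z = σ w
  · subst hz
    rw [h2, if_neg (by omega)]
    simp [hne]
  · have h3 : σ z ≠ w := fun h => hz (by rw [← h, h2])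
    rw [Pi.single_eq_of_ne hz, Pi.single_eq_of_ne h3]
    by_cases hzw : z = w
    · subst hzw
      rw [if_pos hw]
      simp
    · rw [Pi.single_eq_of_ne hzw]
      split_ifs <;> ring

omit [DecidableEq W] in
/-- The operators are symmetric for the weighted form. -/
theorem gop_symm [Fintype W] (t : R) (v u : W → R) :
    ∑ z, gop L σ t v z * u z * t ^ L z = ∑ z, v z * gop L σ t u z * t ^ L z := by
  let e : W ≃ W := ⟨σ, σ, h2, h2⟩
  have key : ∑ z, (if L (σ z) < L z then v (σ z) * u z * t ^ L z else t * v (σ z) * u z * t ^ L z) =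
      ∑ z, (if L (σ z) < L z then v z * u (σ z) * t ^ L z else v z * (t * u (σ z)) * t ^ L z) := by
    rw [← Equiv.sum_comp e (fun z => if L (σ z) < L z then v (σ z) * u z * t ^ L z else
      t * v (σ z) * u z * t ^ L z)]
    apply Finset.sum_congr rfl
    intro z _
    show (if L (σ (σ z)) < L (σ z) then v (σ (σ z)) * u (σ z) * t ^ L (σ z) else
      t * v (σ (σ z)) * u (σ z) * t ^ L (σ z)) = _
    rw [h2]
    rcases h1 z with h | h
    · rw [if_pos (by omega), if_neg (by omega), h]
      ring
    · rw [if_neg (by omega), if_pos (by omega), ← h]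
      ring
  have e1 : ∀ z, gop L σ t v z * u z * t ^ L z =
      (if L (σ z) < L z then v (σ z) * u z * t ^ L z else t * v (σ z) * u z * t ^ L z) +
      (if L (σ z) < L z then (t - 1) * v z * u z * t ^ L z else 0) := by
    intro z
    rw [gop_apply]
    split_ifs <;> ring
  have e2 : ∀ z, v z * gop L σ t u z * t ^ L z =
      (if L (σ z) < L z then v z * u (σ z) * t ^ L z else v z * (t * u (σ z)) * t ^ L z) +
      (if L (σ z) < L z then (t - 1) * v z * u z * t ^ L z else 0) := by
    intro z
    rw [gop_apply]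
    split_ifs <;> ring
  simp only [e1, e2]
  rw [Finset.sum_add_distrib, Finset.sum_add_distrib, key]

end Sigma

/-- The left operator of a generator. -/
def Lop (f : ι → W) (L : W → ℕ) (t : R) (i : ι) : (W → R) →ₗ[R] (W → R) := gop L (f i * ·) t

/-- The right operator of a generator. -/
def Rop (f : ι → W) (L : W → ℕ) (t : R) (i : ι) : (W → R) →ₗ[R] (W → R) := gop L (· * f i) t

theorem Lop_apply (t : R) (i : ι) (v : W → R) (z : W) :
    Lop f L t i v z = if L (f i * z) < L z then v (f i * z) + (t - 1) * v z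
      else t * v (f i * z) := rfl

theorem Rop_apply (t : R) (i : ι) (v : W → R) (z : W) :
    Rop f L t i v z = if L (z * f i) < L z then v (z * f i) + (t - 1) * v z
      else t * v (z * f i) := rfl

/-- Left and right operators commute: the heart of the construction. -/
theorem Lop_Rop_comm (hs : Setup f L) (t : R) (i j : ι) :
    Lop f L t i * Rop f L t j = Rop f L t j * Lop f L t i := by
  apply LinearMap.ext
  intro v
  funext z
  simp only [Module.End.mul_apply, Lop_apply, Rop_apply]
  have ha : f i * (z * f j) = f i * z * f j := (mul_assoc _ _ _).symm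
  rw [ha]
  have h1 := len_left hs i z
  have h2 := len_right hs j z
  have h3 := len_right hs j (f i * z)
  have h4 := len_left hs i (z * f j)
  rw [ha] at h4
  have hq : L z < L (f i * z) → L z < L (z * f j) → L (f i * z * f j) ≤ L z →
      f i * z = z * f j := eq_of_len hs i j z
  have hq' : L (f i * z) < L z → L (z * f j) < L z → L z ≤ L (f i * z * f j) →
      f i * z = z * f j := by
    intro a b c
    have h5 := eq_of_len hs i j (z * f j) (by rw [ha]; omega) (by rw [sq_f hs]; omega)
      (by rw [ha, mul_assoc, mul_assoc, sq_f' hs]; omega)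
    rw [ha] at h5
    have h6 := congrArg (· * f j) h5
    simp only [sq_f hs, mul_assoc] at h6
    rw [← h6]
  by_cases a : L (f i * z) < L z <;> by_cases b : L (z * f j) < L z <;>
    by_cases c : L (f i * z * f j) < L (f i * z) <;>
    by_cases d : L (f i * z * f j) < L (z * f j) <;>
    simp only [a, b, c, d, if_true, if_false] <;>
    first
    | (exfalso; omega)
    | ring1
    | (have e := hq (by omega) (by omega) (by omega); simp only [e]; try ring1)
    | (have e := hq' (by omega) (by omega) (by omega); simp only [e]; try ring1)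

theorem Lop_single_up (hs : Setup f L) [DecidableEq W] (t : R) (i : ι) {w : W}
    (hw : L w < L (f i * w)) : Lop f L t i (Pi.single w 1) = Pi.single (f i * w) 1 :=
  gop_single_up (σ := (f i * ·)) (f_sq hs i) (len_left hs i) t hw

theorem Lop_single_down (hs : Setup f L) [DecidableEq W] (t : R) (i : ι) {w : W}
    (hw : L (f i * w) < L w) :
    Lop f L t i (Pi.single w 1) = t • Pi.single (f i * w) 1 + (t - 1) • Pi.single w 1 :=
  gop_single_down (σ := (f i * ·)) (f_sq hs i) (len_left hs i) t hw

theorem Rop_single_up (hs : Setup f L) [DecidableEq W] (t : R) (i : ι) {w : W}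
    (hw : L w < L (w * f i)) : Rop f L t i (Pi.single w 1) = Pi.single (w * f i) 1 :=
  gop_single_up (σ := (· * f i)) (sq_f hs i) (len_right hs i) t hw

theorem Rop_single_down (hs : Setup f L) [DecidableEq W] (t : R) (i : ι) {w : W}
    (hw : L (w * f i) < L w) :
    Rop f L t i (Pi.single w 1) = t • Pi.single (w * f i) 1 + (t - 1) • Pi.single w 1 :=
  gop_single_down (σ := (· * f i)) (sq_f hs i) (len_right hs i) t hw

/-! ### Words -/

/-- The operator of a word, left. -/
def Lw (f : ι → W) (L : W → ℕ) (t : R) (l : List ι) : Module.End R (W → R) := pr (Lop f L t) l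

/-- The operator of a word, right. -/
def Rw (f : ι → W) (L : W → ℕ) (t : R) (l : List ι) : Module.End R (W → R) :=
  pr (Rop f L t) l.reverse

@[simp] theorem Lw_nil (t : R) : Lw f L t [] = 1 := rfl
@[simp] theorem Rw_nil (t : R) : Rw f L t [] = 1 := rfl

theorem Lw_cons (t : R) (i : ι) (l : List ι) : Lw f L t (i :: l) = Lop f L t i * Lw f L t l := by
  simp [Lw]

theorem Rw_cons (t : R) (i : ι) (l : List ι) : Rw f L t (i :: l) = Rw f L t l * Rop f L t i := by
  simp [Rw, pr_append]

theorem Lw_append (t : R) (l l' : List ι) : Lw f L t (l ++ l') = Lw f L t l * Lw f L t l' := by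
  simp [Lw, pr_append]

theorem comm_Lop_Rw (hs : Setup f L) (t : R) (i : ι) (l : List ι) :
    Lop f L t i * Rw f L t l = Rw f L t l * Lop f L t i := by
  induction l with
  | nil => simp
  | cons j l ih =>
    rw [Rw_cons, ← mul_assoc, ih, mul_assoc, Lop_Rop_comm hs, mul_assoc]

theorem comm_Lw_Rw (hs : Setup f L) (t : R) (l l' : List ι) :
    Lw f L t l * Rw f L t l' = Rw f L t l' * Lw f L t l := by
  induction l with
  | nil => simp
  | cons i l ih =>
    rw [Lw_cons, mul_assoc, ih, ← mul_assoc, comm_Lop_Rw hs, mul_assoc]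

theorem map_Lw (φ : R →+* R') (t : R) (l : List ι) (v : W → R) :
    (fun z => φ (Lw f L t l v z)) = Lw f L (φ t) l (fun z => φ (v z)) := by
  induction l generalizing v with
  | nil => rfl
  | cons i l ih =>
    rw [Lw_cons, Lw_cons, Module.End.mul_apply, Module.End.mul_apply, ← ih]
    exact map_gop φ _ t _

theorem map_Rw (φ : R →+* R') (t : R) (l : List ι) (v : W → R) :
    (fun z => φ (Rw f L t l v z)) = Rw f L (φ t) l (fun z => φ (v z)) := by
  induction l generalizing v with
  | nil => rfl
  | cons i l ih =>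
    rw [Rw_cons, Rw_cons, Module.End.mul_apply, Module.End.mul_apply, ih]
    congr 1
    exact map_gop φ _ t _

section Reduced

variable [DecidableEq W]

theorem Lw_one (hs : Setup f L) (t : R) {l : List ι} (h : L (pr f l) = l.length) :
    Lw f L t l (Pi.single 1 1) = Pi.single (pr f l) 1 := by
  induction l with
  | nil => rfl
  | cons i l ih =>
    have h1 := len_pr_tail hs h
    rw [Lw_cons, Module.End.mul_apply, ih h1, pr_cons]
    apply Lop_single_up hs
    rw [pr_cons, List.length_cons] at h
    omega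

theorem Rw_single (hs : Setup f L) (t : R) {l : List ι} {y : W}
    (h : L (y * pr f l) = L y + l.length) :
    Rw f L t l (Pi.single y 1) = Pi.single (y * pr f l) 1 := by
  induction l generalizing y with
  | nil => simp
  | cons i l ih =>
    rw [pr_cons, List.length_cons, ← mul_assoc] at h
    have h1 := len_mul_pr_le hs (y * f i) l
    have h2 := hs.mul_right_le i y
    rw [Rw_cons, Module.End.mul_apply, Rop_single_up hs t i (by omega), ih (by omega), pr_cons,
      mul_assoc]

end Reduced

/-- The weighted form. -/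
def wform [Fintype W] (L : W → ℕ) (t : R) (v u : W → R) : R := ∑ z, v z * u z * t ^ L z

theorem Lop_symm [Fintype W] (hs : Setup f L) (t : R) (i : ι) (v u : W → R) :
    wform L t (Lop f L t i v) u = wform L t v (Lop f L t i u) :=
  gop_symm (σ := (f i * ·)) (f_sq hs i) (len_left hs i) t v u

theorem Lw_symm [Fintype W] (hs : Setup f L) (t : R) (l : List ι) (v u : W → R) :
    wform L t (Lw f L t l v) u = wform L t v (Lw f L t l.reverse u) := by
  induction l generalizing u with
  | nil => rfl
  | cons i l ih =>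
    rw [Lw_cons, Module.End.mul_apply, Lop_symm hs, ih, List.reverse_cons, Lw_append,
      Module.End.mul_apply]
    simp [Lw]

end Op

/-! ### The chosen words and the operators of elements -/

section Elem

variable {R R' : Type*} [CommRing R] [CommRing R'] (hs : Setup f L)

/-- A reduced word of an element. -/
noncomputable def wd (a : W) : List ι := (hs.ex a).choose

theorem wd_pr (a : W) : pr f (wd hs a) = a := (hs.ex a).choose_spec.1

theorem wd_len (a : W) : (wd hs a).length = L a := (hs.ex a).choose_spec.2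

theorem wd_red (a : W) : L (pr f (wd hs a)) = (wd hs a).length := by
  rw [wd_pr, wd_len]

/-- Left multiplication by `T_a`. -/
noncomputable def Lam (t : R) (a : W) : Module.End R (W → R) := Lw f L t (wd hs a)

/-- Right multiplication by `T_a`. -/
noncomputable def Rho (t : R) (a : W) : Module.End R (W → R) := Rw f L t (wd hs a)

theorem comm_Lam_Rho (t : R) (a b : W) : Lam hs t a * Rho hs t b = Rho hs t b * Lam hs t a :=
  comm_Lw_Rw hs t _ _

theorem map_Lam (φ : R →+* R') (t : R) (a : W) (v : W → R) :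
    (fun z => φ (Lam hs t a v z)) = Lam hs (φ t) a (fun z => φ (v z)) := map_Lw φ t _ v

theorem map_Rho (φ : R →+* R') (t : R) (a : W) (v : W → R) :
    (fun z => φ (Rho hs t a v z)) = Rho hs (φ t) a (fun z => φ (v z)) := map_Rw φ t _ v

variable [DecidableEq W]

theorem Lam_one_single (t : R) (a : W) : Lam hs t a (Pi.single 1 1) = Pi.single a 1 := by
  rw [Lam, Lw_one hs t (wd_red hs a), wd_pr]

theorem Rho_one_single (t : R) (a : W) : Rho hs t a (Pi.single 1 1) = Pi.single a 1 := by
  rw [Rho, Rw_single hs t (l := wd hs a) (y := 1) (by rw [one_mul, wd_red hs, len_one hs, zero_add]),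
    one_mul, wd_pr]

theorem Lam_single (t : R) (a b : W) : Lam hs t a (Pi.single b 1) = Rho hs t b (Pi.single a 1) := by
  rw [← Rho_one_single hs t b, ← Module.End.mul_apply, comm_Lam_Rho, Module.End.mul_apply,
    Lam_one_single]

theorem end_ext [Finite W] {T T' : Module.End R (W → R)}
    (h : ∀ b, T (Pi.single b 1) = T' (Pi.single b 1)) : T = T' :=
  LinearMap.pi_ext' fun b => LinearMap.ext_ring (h b)

theorem Lw_eq_Lam [Finite W] (t : R) {l : List ι} (h : L (pr f l) = l.length) :
    Lw f L t l = Lam hs t (pr f l) := by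
  apply end_ext
  intro b
  have h1 : Lw f L t l (Pi.single b 1) = Rho hs t b (Pi.single (pr f l) 1) := by
    calc Lw f L t l (Pi.single b 1) = Lw f L t l (Rho hs t b (Pi.single 1 1)) := by
          rw [Rho_one_single]
      _ = (Lw f L t l * Rw f L t (wd hs b)) (Pi.single 1 1) := rfl
      _ = (Rw f L t (wd hs b) * Lw f L t l) (Pi.single 1 1) := by rw [comm_Lw_Rw hs]
      _ = Rho hs t b (Pi.single (pr f l) 1) := by
          rw [Module.End.mul_apply, Lw_one hs t h]
          rfl
  rw [h1, Lam_single]

theorem Rw_eq_Rho [Finite W] (t : R) {l : List ι} (h : L (pr f l) = l.length) :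
    Rw f L t l = Rho hs t (pr f l) := by
  apply end_ext
  intro b
  have h1 : Rw f L t l (Pi.single b 1) = Lam hs t b (Pi.single (pr f l) 1) := by
    calc Rw f L t l (Pi.single b 1) = Rw f L t l (Lam hs t b (Pi.single 1 1)) := by
          rw [Lam_one_single]
      _ = (Rw f L t l * Lw f L t (wd hs b)) (Pi.single 1 1) := rfl
      _ = (Lw f L t (wd hs b) * Rw f L t l) (Pi.single 1 1) := by rw [comm_Lw_Rw hs]
      _ = Lam hs t b (Pi.single (pr f l) 1) := by
          rw [Module.End.mul_apply, Rw_single hs t (l := l) (y := 1)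
            (by rw [one_mul, h, len_one hs, zero_add]), one_mul]
          rfl
  rw [h1, Lam_single]

theorem wd_one : wd hs (1 : W) = [] := by
  have h := wd_len hs (1 : W)
  rw [len_one hs] at h
  exact List.length_eq_zero_iff.1 h

theorem Lam_one (t : R) : Lam hs t (1 : W) = 1 := by
  rw [Lam, wd_one]
  rfl

theorem Rho_one (t : R) : Rho hs t (1 : W) = 1 := by
  rw [Rho, wd_one]
  rfl

theorem Lam_f [Finite W] (t : R) (i : ι) : Lam hs t (f i) = Lop f L t i := by
  have h := Lw_eq_Lam hs t (l := [i]) (by rw [pr_singleton, len_f hs]; rfl)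
  rw [pr_singleton] at h
  rw [← h]
  simp [Lw]

theorem Rho_f [Finite W] (t : R) (i : ι) : Rho hs t (f i) = Rop f L t i := by
  have h := Rw_eq_Rho hs t (l := [i]) (by rw [pr_singleton, len_f hs]; rfl)
  rw [pr_singleton] at h
  rw [← h]
  simp [Rw]

end Elem

/-! ### The algebra -/

section Alg

variable {R : Type*} [CommRing R] (hs : Setup f L) (t : R)

/-- The generic Hecke algebra at `t`, on the space of functions `W → R`. -/
structure HA (_hs : Setup f L) (_t : R) : Type _ where
  /-- An element from its coefficient function. -/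
  of ::
  /-- The coefficient function. -/
  fn : W → R

variable {hs t}

/-- The identification with the functions. -/
def HA.equiv : HA hs t ≃ (W → R) := ⟨HA.fn, HA.of, fun _ => rfl, fun _ => rfl⟩

instance : AddCommGroup (HA hs t) := HA.equiv.addCommGroup
instance : Module R (HA hs t) := HA.equiv.module R

instance : CoeFun (HA hs t) (fun _ => W → R) := ⟨HA.fn⟩

@[simp] theorem HA.fn_of (v : W → R) : (HA.of v : HA hs t).fn = v := rfl
@[simp] theorem HA.of_fn (x : HA hs t) : HA.of x.fn = x := rfl
theorem HA.fn_injective : Function.Injective (HA.fn : HA hs t → W → R) := HA.equiv.injective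
@[ext] theorem HA.ext {x y : HA hs t} (h : ∀ z, x z = y z) : x = y :=
  HA.fn_injective (funext h)

@[simp] theorem HA.add_apply (x y : HA hs t) (z : W) : (x + y) z = x z + y z := rfl
@[simp] theorem HA.sub_apply (x y : HA hs t) (z : W) : (x - y) z = x z - y z := rfl
@[simp] theorem HA.zero_apply (z : W) : (0 : HA hs t) z = 0 := rfl
@[simp] theorem HA.smul_apply (c : R) (x : HA hs t) (z : W) : (c • x) z = c * x z := rfl
theorem HA.fn_add (x y : HA hs t) : (x + y).fn = x.fn + y.fn := rfl
theorem HA.fn_smul (c : R) (x : HA hs t) : (c • x).fn = c • x.fn := rfl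
theorem HA.sum_apply {κ : Type*} (s : Finset κ) (g : κ → HA hs t) (z : W) :
    (∑ k ∈ s, g k) z = ∑ k ∈ s, g k z := by
  classical
  induction s using Finset.induction_on with
  | empty => rfl
  | insert a s ha ih =>
    rw [Finset.sum_insert ha, Finset.sum_insert ha, HA.add_apply, ih]

variable (hs t)
variable [Fintype W] [DecidableEq W]

/-- Left multiplication by an element. -/
noncomputable def lmul (x : W → R) : Module.End R (W → R) := ∑ a, x a • Lam hs t a

/-- Right multiplication by an element. -/
noncomputable def rmul (y : W → R) : Module.End R (W → R) := ∑ b, y b • Rho hs t b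

theorem lmul_apply (x y : W → R) : lmul hs t x y = ∑ a, x a • Lam hs t a y := by
  simp [lmul, LinearMap.sum_apply]

theorem rmul_apply (y x : W → R) : rmul hs t y x = ∑ b, y b • Rho hs t b x := by
  simp [rmul, LinearMap.sum_apply]

theorem eq_sum_single (x : W → R) : x = ∑ a, x a • Pi.single a (1 : R) := by
  funext z
  simp [Finset.sum_apply, Pi.single_apply]

theorem lmul_single (a : W) : lmul hs t (Pi.single a 1) = Lam hs t a := by
  rw [lmul, Finset.sum_eq_single a]
  · simp
  · intro b _ hb
    simp [Pi.single_eq_of_ne hb]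
  · simp

theorem rmul_single (a : W) : rmul hs t (Pi.single a 1) = Rho hs t a := by
  rw [rmul, Finset.sum_eq_single a]
  · simp
  · intro b _ hb
    simp [Pi.single_eq_of_ne hb]
  · simp

theorem Lam_symm (a : W) (v u : W → R) :
    wform L t (Lam hs t a v) u = wform L t v (Lam hs t a⁻¹ u) := by
  rw [Lam, Lw_symm hs]
  have hred : L (pr f (wd hs a).reverse) = (wd hs a).reverse.length := by
    rw [pr_reverse hs, wd_pr, len_inv hs, List.length_reverse, wd_len]
  rw [Lw_eq_Lam hs t hred, pr_reverse hs, wd_pr]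

theorem lmul_eq_rmul (x y : W → R) : lmul hs t x y = rmul hs t y x := by
  conv_lhs => rw [eq_sum_single y]
  rw [map_sum, rmul_apply]
  apply Finset.sum_congr rfl
  intro b _
  rw [map_smul, lmul_apply]
  congr 1
  conv_rhs => rw [eq_sum_single x, map_sum]
  apply Finset.sum_congr rfl
  intro a _
  rw [map_smul, Lam_single]

theorem lmul_rmul (x y z : W → R) : lmul hs t x (rmul hs t z y) = rmul hs t z (lmul hs t x y) := by
  have h : ∀ a b, Lam hs t a (Rho hs t b y) = Rho hs t b (Lam hs t a y) := by
    intro a b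
    rw [← Module.End.mul_apply, comm_Lam_Rho, Module.End.mul_apply]
  rw [lmul_apply, rmul_apply]
  simp only [rmul_apply, lmul_apply, map_sum, map_smul, Finset.smul_sum, h]

noncomputable instance : Mul (HA hs t) := ⟨fun x y => HA.of (lmul hs t x.fn y.fn)⟩

instance : One (HA hs t) := ⟨HA.of (Pi.single 1 1)⟩

variable {hs t} in
theorem HA.fn_mul (x y : HA hs t) : (x * y).fn = lmul hs t x.fn y.fn := rfl

variable {hs t} in
theorem HA.fn_mul' (x y : HA hs t) : (x * y).fn = rmul hs t y.fn x.fn := lmul_eq_rmul hs t _ _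

noncomputable instance : Ring (HA hs t) :=
  { (inferInstance : AddCommGroup (HA hs t)) with
    mul := (· * ·)
    one := 1
    left_distrib := fun x y z => HA.fn_injective (map_add (lmul hs t x.fn) y.fn z.fn)
    right_distrib := fun x y z => HA.fn_injective (by
      show ((x + y) * z : HA hs t).fn = (x * z + y * z : HA hs t).fn
      rw [HA.fn_mul', HA.fn_add, HA.fn_add, HA.fn_mul', HA.fn_mul']
      exact map_add (rmul hs t z.fn) x.fn y.fn)
    zero_mul := fun x => HA.fn_injective (by
      show (0 * x : HA hs t).fn = _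
      rw [HA.fn_mul']
      exact map_zero (rmul hs t x.fn))
    mul_zero := fun x => HA.fn_injective (map_zero (lmul hs t x.fn))
    mul_assoc := fun x y z => HA.fn_injective (by
      show (x * y * z : HA hs t).fn = (x * (y * z) : HA hs t).fn
      rw [HA.fn_mul' (x * y) z, HA.fn_mul, HA.fn_mul x (y * z), HA.fn_mul' y z]
      exact (lmul_rmul hs t x.fn y.fn z.fn).symm)
    one_mul := fun x => HA.fn_injective (by
      show ((1 : HA hs t) * x).fn = x.fn
      rw [HA.fn_mul]
      show lmul hs t (Pi.single 1 1) x.fn = x.fn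
      rw [lmul_single, Lam_one]
      rfl)
    mul_one := fun x => HA.fn_injective (by
      show (x * (1 : HA hs t)).fn = x.fn
      rw [HA.fn_mul']
      show rmul hs t (Pi.single 1 1) x.fn = x.fn
      rw [rmul_single, Rho_one]
      rfl) }

noncomputable instance : Algebra R (HA hs t) :=
  Algebra.ofModule
    (fun r x y => HA.fn_injective (by
      rw [HA.fn_mul', HA.fn_smul, HA.fn_smul, HA.fn_mul']
      exact map_smul (rmul hs t y.fn) r x.fn))
    (fun r x y => HA.fn_injective (map_smul (lmul hs t x.fn) r y.fn))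

/-- The basis element `T_a`. -/
def T (a : W) : HA hs t := HA.of (Pi.single a 1)

theorem one_eq_T : (1 : HA hs t) = T hs t 1 := rfl

theorem fn_T_mul (a : W) (y : HA hs t) : (T hs t a * y).fn = Lam hs t a y.fn := by
  rw [HA.fn_mul]
  show lmul hs t (Pi.single a 1) y.fn = _
  rw [lmul_single]

theorem fn_mul_T (x : HA hs t) (b : W) : (x * T hs t b).fn = Rho hs t b x.fn := by
  rw [HA.fn_mul']
  show rmul hs t (Pi.single b 1) x.fn = _
  rw [rmul_single]

theorem HA_eq_sum (x : HA hs t) : x = ∑ a, (x a) • T hs t a := by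
  ext z
  rw [HA.sum_apply]
  have h := congrFun (eq_sum_single x.fn) z
  rw [Finset.sum_apply] at h
  exact h

/-- Adjointness of left multiplication. -/
theorem wform_T_mul (a : W) (v u : HA hs t) :
    wform L t (T hs t a * v).fn u.fn = wform L t v.fn (T hs t a⁻¹ * u).fn := by
  rw [fn_T_mul, fn_T_mul]
  exact Lam_symm hs t a v.fn u.fn

theorem wform_one (x : HA hs t) : wform L t x.fn (T hs t 1).fn = x 1 := by
  rw [wform, Finset.sum_eq_single 1]
  · simp [T, len_one hs]
  · intro b _ hb
    simp [T, Pi.single_eq_of_ne hb]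
  · simp

theorem wform_T (x : HA hs t) (a : W) : wform L t x.fn (T hs t a).fn = x a * t ^ L a := by
  rw [wform, Finset.sum_eq_single a]
  · simp [T]
  · intro b _ hb
    simp [T, Pi.single_eq_of_ne hb]
  · simp

/-- The coefficient at `1` of a product with a basis element. -/
theorem T_mul_one (a : W) (v : HA hs t) : (T hs t a * v) 1 = v a⁻¹ * t ^ L a := by
  rw [← wform_one hs t, wform_T_mul, ← one_eq_T, mul_one, wform_T, len_inv hs]

theorem T_apply_self (a : W) : T hs t a a = 1 := by simp [T]
theorem T_apply_ne {a b : W} (h : b ≠ a) : T hs t a b = 0 := by simp [T, Pi.single_eq_of_ne h]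

/-- The trace at `1` is symmetric. -/
theorem tr_comm (x y : HA hs t) : (x * y) 1 = (y * x) 1 := by
  have key : ∀ a b, (T hs t a * T hs t b) 1 = (T hs t b * T hs t a) 1 := by
    intro a b
    rw [T_mul_one, T_mul_one]
    by_cases h : b = a⁻¹
    · subst h
      rw [inv_inv, T_apply_self, T_apply_self, len_inv hs]
    · have h' : a ≠ b⁻¹ := fun e => h (by rw [e, inv_inv])
      rw [T_apply_ne hs t (a := b) (b := a⁻¹) (fun e => h e.symm),
        T_apply_ne hs t (a := a) (b := b⁻¹) (fun e => h' e.symm)]
      simp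
  have h1 : ∀ a (y : HA hs t), (T hs t a * y) 1 = (y * T hs t a) 1 := by
    intro a y
    conv_lhs => rw [HA_eq_sum hs t y, Finset.mul_sum]
    conv_rhs => rw [HA_eq_sum hs t y, Finset.sum_mul]
    rw [HA.sum_apply, HA.sum_apply]
    apply Finset.sum_congr rfl
    intro b _
    rw [mul_smul_comm, smul_mul_assoc, HA.smul_apply, HA.smul_apply, key]
  conv_lhs => rw [HA_eq_sum hs t x, Finset.sum_mul]
  conv_rhs => rw [HA_eq_sum hs t x, Finset.mul_sum]
  rw [HA.sum_apply, HA.sum_apply]
  apply Finset.sum_congr rfl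
  intro b _
  rw [mul_smul_comm, smul_mul_assoc, HA.smul_apply, HA.smul_apply, h1]

/-- Multiplication by generators. -/
theorem fn_Tf_mul (i : ι) (y : HA hs t) : (T hs t (f i) * y).fn = Lop f L t i y.fn := by
  rw [fn_T_mul, Lam_f]

theorem fn_mul_Tf (x : HA hs t) (i : ι) : (x * T hs t (f i)).fn = Rop f L t i x.fn := by
  rw [fn_mul_T, Rho_f]

end Alg

/-! ### The Casimir operator over a field -/

section Cas

variable {K : Type*} [Field K] (hs : Setup f L) (t : K) [Fintype W] [DecidableEq W]

/-- The expansion of an element through the trace form. -/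
theorem expand (ht : t ≠ 0) (x : HA hs t) :
    x = ∑ w, (((t ^ L w)⁻¹ * (T hs t w⁻¹ * x) 1) • T hs t w) := by
  conv_lhs => rw [HA_eq_sum hs t x]
  apply Finset.sum_congr rfl
  intro w _
  rw [T_mul_one, inv_inv, len_inv hs, mul_comm (x w), ← mul_assoc, inv_mul_cancel₀ (pow_ne_zero _ ht),
    one_mul]

/-- The same expansion, indexed by inverses. -/
theorem expand' (ht : t ≠ 0) (x : HA hs t) :
    x = ∑ w, (((t ^ L w)⁻¹ * (T hs t w * x) 1) • T hs t w⁻¹) := by
  conv_lhs => rw [expand hs t ht x]
  rw [← Equiv.sum_comp (Equiv.inv W)]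
  apply Finset.sum_congr rfl
  intro w _
  simp [len_inv hs]

/-- The Casimir operator. -/
noncomputable def cas : HA hs t →ₗ[K] HA hs t where
  toFun x := ∑ w, (t ^ L w)⁻¹ • (T hs t w * x * T hs t w⁻¹)
  map_add' x y := by simp only [mul_add, add_mul, smul_add, Finset.sum_add_distrib]
  map_smul' c x := by simp only [mul_smul_comm, smul_mul_assoc, Finset.smul_sum, RingHom.id_apply,
    smul_comm c]

theorem cas_apply (x : HA hs t) : cas hs t x = ∑ w, (t ^ L w)⁻¹ • (T hs t w * x * T hs t w⁻¹) := rfl

/-- The values of the Casimir operator are central. -/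
theorem cas_comm (ht : t ≠ 0) (a x : HA hs t) : a * cas hs t x = cas hs t x * a := by
  have h1 : a * cas hs t x = ∑ w, ∑ v, ((t ^ L w)⁻¹ * ((t ^ L v)⁻¹ * (T hs t v⁻¹ * (a * T hs t w)) 1)) •
      (T hs t v * x * T hs t w⁻¹) := by
    rw [cas_apply, Finset.mul_sum]
    apply Finset.sum_congr rfl
    intro w _
    rw [mul_smul_comm, ← mul_assoc, ← mul_assoc]
    conv_lhs => rw [expand hs t ht (a * T hs t w)]
    rw [Finset.sum_mul, Finset.sum_mul, Finset.smul_sum]
    apply Finset.sum_congr rfl
    intro v _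
    rw [smul_mul_assoc, smul_mul_assoc, smul_smul]
  have h2 : cas hs t x * a = ∑ v, ∑ w, ((t ^ L v)⁻¹ * ((t ^ L w)⁻¹ * (T hs t w * (T hs t v⁻¹ * a)) 1)) •
      (T hs t v * x * T hs t w⁻¹) := by
    rw [cas_apply, Finset.sum_mul]
    apply Finset.sum_congr rfl
    intro v _
    rw [smul_mul_assoc, mul_assoc]
    conv_lhs => rw [expand' hs t ht (T hs t v⁻¹ * a)]
    rw [Finset.mul_sum, Finset.smul_sum]
    apply Finset.sum_congr rfl
    intro w _
    rw [mul_smul_comm, smul_smul, ← mul_assoc]
  rw [h1, h2, Finset.sum_comm]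
  apply Finset.sum_congr rfl
  intro v _
  apply Finset.sum_congr rfl
  intro w _
  have h3 : (T hs t v⁻¹ * (a * T hs t w)) 1 = (T hs t w * (T hs t v⁻¹ * a)) 1 := by
    rw [← mul_assoc, tr_comm]
  rw [h3]
  ring_nf

/-- The Casimir operator on a central element. -/
theorem cas_central {c : HA hs t} (hc : ∀ b, b * c = c * b) : cas hs t c = cas hs t 1 * c := by
  rw [cas_apply, cas_apply, Finset.sum_mul]
  apply Finset.sum_congr rfl
  intro w _
  rw [smul_mul_assoc, mul_one, mul_assoc, mul_assoc, hc]

theorem smul_cas_eq (ht : t ≠ 0) (D : ℕ) (hD : ∀ w, L w ≤ D) (x : HA hs t) :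
    t ^ D • cas hs t x = ∑ w, t ^ (D - L w) • (T hs t w * x * T hs t w⁻¹) := by
  rw [cas_apply, Finset.smul_sum]
  apply Finset.sum_congr rfl
  intro w _
  rw [smul_smul]
  congr 1
  rw [← Nat.sub_add_cancel (hD w), pow_add, Nat.add_sub_cancel, mul_assoc,
    mul_inv_cancel₀ (pow_ne_zero _ ht), mul_one]

end Cas

/-! ### Positivity for real parameters -/

section Pos

open ComplexConjugate

variable (hs : Setup f L) (r : ℝ) [Fintype W] [DecidableEq W]

/-- The squared norm of an element. -/
noncomputable def nr (L : W → ℕ) (r : ℝ) (x : W → ℂ) : ℝ := ∑ z, ‖x z‖ ^ 2 * r ^ L z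

omit [DecidableEq W] in
theorem wform_conj (x : W → ℂ) :
    wform L (r : ℂ) x (fun z => conj (x z)) = (nr L r x : ℂ) := by
  rw [wform, nr]
  push_cast
  apply Finset.sum_congr rfl
  intro z _
  rw [Complex.mul_conj, Complex.normSq_eq_norm_sq]
  push_cast
  ring

omit [DecidableEq W] in
theorem nr_nonneg (hr : 0 < r) (x : W → ℂ) : 0 ≤ nr L r x :=
  Finset.sum_nonneg fun z _ => mul_nonneg (sq_nonneg _) (pow_pos hr _).le

omit [DecidableEq W] in
theorem nr_eq_zero (hr : 0 < r) {x : W → ℂ} (h : nr L r x = 0) : x = 0 := by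
  have h1 := (Finset.sum_eq_zero_iff_of_nonneg
    (fun z _ => mul_nonneg (sq_nonneg _) (pow_pos hr _).le)).1 h
  funext z
  have h2 := h1 z (Finset.mem_univ z)
  have h3 : ‖x z‖ ^ 2 = 0 := by
    rcases mul_eq_zero.1 h2 with h4 | h4
    · exact h4
    · exact absurd h4 (pow_pos hr _).ne'
  simpa using h3

theorem wform_sum_smul {R : Type*} [CommRing R] (t : R) (a : W → R) (X : W → HA hs t) (u : W → R) :
    wform L t (∑ w, a w • X w).fn u = ∑ w, a w * wform L t (X w).fn u := by
  simp only [wform, Finset.mul_sum]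
  rw [Finset.sum_comm]
  apply Finset.sum_congr rfl
  intro z _
  rw [HA.sum_apply, Finset.sum_mul, Finset.sum_mul]
  apply Finset.sum_congr rfl
  intro w _
  rw [HA.smul_apply]
  ring

/-- The Casimir element acts injectively. -/
theorem cas_one_mul_inj (hr : 0 < r) (u : HA hs (r : ℂ)) (h : cas hs (r : ℂ) 1 * u = 0) : u = 0 := by
  have hconj : ∀ (w : W) (v : W → ℂ), (fun z => conj (Lam hs (r : ℂ) w v z)) =
      Lam hs (r : ℂ) w (fun z => conj (v z)) := by
    intro w v
    have := map_Lam hs (starRingEnd ℂ) (r : ℂ) w v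
    simpa using this
  have h1 : cas hs (r : ℂ) 1 * u = ∑ w, (((r : ℂ) ^ L w)⁻¹ : ℂ) • (T hs (r : ℂ) w * (T hs (r : ℂ) w⁻¹ * u)) := by
    rw [cas_apply, Finset.sum_mul]
    apply Finset.sum_congr rfl
    intro w _
    rw [smul_mul_assoc, mul_one, mul_assoc]
  have h2 : ∀ w, wform L (r : ℂ) (T hs (r : ℂ) w * (T hs (r : ℂ) w⁻¹ * u)).fn (fun z => conj (u z)) =
      (nr L r (T hs (r : ℂ) w⁻¹ * u).fn : ℂ) := by
    intro w
    have h3 := wform_T_mul hs (r : ℂ) w (T hs (r : ℂ) w⁻¹ * u) (HA.of fun z => conj (u z))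
    have h4 : (T hs (r : ℂ) w⁻¹ * HA.of fun z => conj (u z)).fn =
        fun z => conj ((T hs (r : ℂ) w⁻¹ * u).fn z) := by
      rw [fn_T_mul, fn_T_mul, hconj]
    rw [HA.fn_of] at h3
    rw [h3, h4, wform_conj]
  have h3 : ∑ w, ((r ^ L w)⁻¹ * nr L r (T hs (r : ℂ) w⁻¹ * u).fn : ℝ) = 0 := by
    have h4 : wform L (r : ℂ) (cas hs (r : ℂ) 1 * u).fn (fun z => conj (u z)) = 0 := by
      rw [h]
      simp only [wform]
      apply Finset.sum_eq_zero
      intro z _
      have : (0 : HA hs (r : ℂ)).fn z = 0 := rfl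
      rw [this, zero_mul, zero_mul]
    rw [h1, wform_sum_smul] at h4
    simp only [h2] at h4
    have h5 : ((∑ w, ((r ^ L w)⁻¹ * nr L r (T hs (r : ℂ) w⁻¹ * u).fn : ℝ) : ℝ) : ℂ) = 0 := by
      push_cast
      exact h4
    exact_mod_cast h5
  have h4 := (Finset.sum_eq_zero_iff_of_nonneg (fun w _ => mul_nonneg
    (inv_nonneg.2 (pow_pos hr _).le) (nr_nonneg r hr _))).1 h3 1 (Finset.mem_univ _)
  rcases mul_eq_zero.1 h4 with h5 | h5
  · exact absurd h5 (inv_ne_zero (pow_pos hr _).ne')
  · have h6 : T hs (r : ℂ) (1 : W)⁻¹ * u = u := by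
      rw [inv_one, ← one_eq_T, one_mul]
    rw [h6] at h5
    exact HA.fn_injective (nr_eq_zero r hr h5)

/-- The Casimir operator is injective on the centre. -/
theorem cas_inj_center (hr : 0 < r) {c : HA hs (r : ℂ)} (hc : ∀ b, b * c = c * b)
    (h : cas hs (r : ℂ) c = 0) : c = 0 := by
  rw [cas_central hs _ hc] at h
  exact cas_one_mul_inj hs r hr c h

theorem cas_inj_center' (t : ℂ) (ht : ∃ r : ℝ, 0 < r ∧ t = r) {c : HA hs t}
    (hc : ∀ b, b * c = c * b) (h : cas hs t c = 0) : c = 0 := by
  obtain ⟨r, hr, rfl⟩ := ht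
  exact cas_inj_center hs r hr hc h

/-- The centre as a subspace. -/
noncomputable def Zc {K : Type*} [Field K] (t : K) : Submodule K (HA hs t) :=
  Subalgebra.toSubmodule (Subalgebra.center K (HA hs t))

theorem mem_Zc {K : Type*} [Field K] (t : K) {x : HA hs t} :
    x ∈ Zc hs t ↔ ∀ b, b * x = x * b := by
  rw [Zc, Subalgebra.mem_toSubmodule, Subalgebra.mem_center_iff]

/-- Commuting with the basis is enough. -/
theorem mem_Zc_iff_T {K : Type*} [Field K] (t : K) {x : HA hs t} :
    x ∈ Zc hs t ↔ ∀ a, T hs t a * x = x * T hs t a := by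
  rw [mem_Zc]
  refine ⟨fun h a => h _, fun h b => ?_⟩
  rw [HA_eq_sum hs t b, Finset.sum_mul, Finset.mul_sum]
  apply Finset.sum_congr rfl
  intro a _
  rw [smul_mul_assoc, mul_smul_comm, h]

/-- The linear identification with the functions. -/
noncomputable def HA.lin {R : Type*} [CommRing R] {hs : Setup f L} {t : R} : HA hs t ≃ₗ[R] (W → R) :=
  { HA.equiv with
    map_add' := fun _ _ => rfl
    map_smul' := fun _ _ => rfl }

theorem HA.lin_apply {R : Type*} [CommRing R] {hs : Setup f L} {t : R} (x : HA hs t) :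
    HA.lin x = x.fn := rfl

instance {K : Type*} [Field K] (t : K) : FiniteDimensional K (HA hs t) :=
  Module.Finite.equiv HA.lin.symm

/-- The rank of the Casimir operator is the dimension of the centre. -/
theorem finrank_range_cas (hr : 0 < r) :
    Module.finrank ℂ (LinearMap.range (cas hs (r : ℂ))) = Module.finrank ℂ (Zc hs (r : ℂ)) := by
  have hne : (r : ℂ) ≠ 0 := by exact_mod_cast hr.ne'
  apply le_antisymm
  · apply Submodule.finrank_mono
    rintro _ ⟨x, rfl⟩
    rw [mem_Zc]
    intro b
    exact cas_comm hs _ hne b x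
  · have hinj : Function.Injective ((cas hs (r : ℂ)).domRestrict (Zc hs (r : ℂ))) := by
      rw [← LinearMap.ker_eq_bot, LinearMap.ker_eq_bot']
      rintro ⟨c, hc⟩ h
      have h1 : cas hs (r : ℂ) c = 0 := h
      exact Subtype.ext (cas_inj_center hs r hr ((mem_Zc hs _).1 hc) h1)
    rw [← LinearMap.finrank_range_of_inj hinj]
    apply Submodule.finrank_mono
    rintro _ ⟨x, rfl⟩
    exact ⟨x, rfl⟩

end Pos

/-! ### The polynomial families -/

section Poly

variable {R R' : Type*} [CommRing R] [CommRing R'] (hs : Setup f L) [Fintype W] [DecidableEq W]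

/-- The scaled Casimir operator on functions. -/
noncomputable def Pop (D : ℕ) (t : R) : Module.End R (W → R) :=
  ∑ w, t ^ (D - L w) • (Lam hs t w * Rho hs t w⁻¹)

/-- The commutator operator on functions. -/
noncomputable def Nop (t : R) : (W → R) →ₗ[R] (W × W → R) where
  toFun v p := (Lam hs t p.1 v - Rho hs t p.1 v) p.2
  map_add' u v := by
    funext p
    simp only [map_add, Pi.add_apply, Pi.sub_apply]
    ring
  map_smul' c v := by
    funext p
    simp only [map_smul, Pi.smul_apply, Pi.sub_apply, smul_eq_mul, RingHom.id_apply]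
    ring

theorem Pop_apply (D : ℕ) (t : R) (v : W → R) (z : W) :
    Pop hs D t v z = ∑ w, t ^ (D - L w) * Lam hs t w (Rho hs t w⁻¹ v) z := by
  rw [Pop, LinearMap.sum_apply, Finset.sum_apply]
  rfl

theorem Nop_apply (t : R) (v : W → R) (p : W × W) :
    Nop hs t v p = (Lam hs t p.1 v - Rho hs t p.1 v) p.2 := rfl

theorem map_Pop (φ : R →+* R') (D : ℕ) (t : R) (v : W → R) :
    (fun z => φ (Pop hs D t v z)) = Pop hs D (φ t) (fun z => φ (v z)) := by
  funext z
  simp only [Pop_apply, map_sum, map_mul, map_pow]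
  apply Finset.sum_congr rfl
  intro w _
  rw [← map_Rho, ← map_Lam]

theorem map_Nop (φ : R →+* R') (t : R) (v : W → R) :
    (fun p => φ (Nop hs t v p)) = Nop hs (φ t) (fun z => φ (v z)) := by
  funext p
  simp only [Nop_apply, Pi.sub_apply, map_sub]
  rw [← map_Rho, ← map_Lam]

/-- A bound for the lengths. -/
def DD (L : W → ℕ) : ℕ := ∑ w, L w

theorem le_DD (w : W) : L w ≤ DD L :=
  Finset.single_le_sum (f := L) (fun _ _ => Nat.zero_le _) (Finset.mem_univ w)

section Field

variable {K : Type*} [Field K] (t : K)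

theorem Pop_eq (ht : t ≠ 0) (x : HA hs t) :
    Pop hs (DD L) t x.fn = (t ^ DD L • cas hs t x).fn := by
  rw [smul_cas_eq hs t ht (DD L) le_DD]
  funext z
  rw [Pop_apply, HA.sum_apply]
  apply Finset.sum_congr rfl
  intro w _
  rw [HA.smul_apply]
  congr 2
  have h1 : (T hs t w * x * T hs t w⁻¹).fn = Rho hs t w⁻¹ (Lam hs t w x.fn) := by
    rw [fn_mul_T, fn_T_mul]
  have h2 : Lam hs t w (Rho hs t w⁻¹ x.fn) = Rho hs t w⁻¹ (Lam hs t w x.fn) := by
    rw [← Module.End.mul_apply, comm_Lam_Rho, Module.End.mul_apply]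
  rw [h2]
  exact (congrFun h1 z).symm

theorem finrank_range_Pop (ht : t ≠ 0) :
    Module.finrank K (LinearMap.range (Pop hs (DD L) t)) =
      Module.finrank K (LinearMap.range (cas hs t)) := by
  have h1 : Pop hs (DD L) t = (HA.lin : HA hs t ≃ₗ[K] (W → K)).toLinearMap ∘ₗ
      (t ^ DD L • cas hs t) ∘ₗ (HA.lin : HA hs t ≃ₗ[K] (W → K)).symm.toLinearMap := by
    apply LinearMap.ext
    intro v
    exact Pop_eq hs t ht (HA.of v)
  rw [h1, LinearMap.range_comp, LinearMap.range_comp_of_range_eq_top _ (LinearEquiv.range _),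
    LinearEquiv.finrank_map_eq, LinearMap.range_smul _ _ (pow_ne_zero _ ht)]

theorem ker_Nop :
    Module.finrank K (LinearMap.ker (Nop hs t)) = Module.finrank K (Zc hs t) := by
  have h1 : LinearMap.ker (Nop hs t) =
      (Zc hs t).map (HA.lin : HA hs t ≃ₗ[K] (W → K)).toLinearMap := by
    ext v
    rw [LinearMap.mem_ker, Submodule.mem_map]
    constructor
    · intro h
      refine ⟨HA.of v, ?_, rfl⟩
      rw [mem_Zc_iff_T]
      intro a
      apply HA.fn_injective
      rw [fn_T_mul, fn_mul_T]
      funext z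
      have h2 := congrFun h (a, z)
      rw [Nop_apply, Pi.sub_apply, Pi.zero_apply, sub_eq_zero] at h2
      exact h2
    · rintro ⟨x, hx, rfl⟩
      funext p
      have h2 := (mem_Zc_iff_T hs t).1 hx p.1
      have h3 := congrArg HA.fn h2
      rw [fn_T_mul, fn_mul_T] at h3
      rw [Nop_apply, Pi.sub_apply, Pi.zero_apply, sub_eq_zero]
      exact congrFun h3 p.2
  rw [h1]
  exact LinearEquiv.finrank_map_eq _ _

end Field

open Polynomial in
/-- The matrix of the scaled Casimir family. -/
noncomputable def PM : Matrix W W ℂ[X] := LinearMap.toMatrix' (Pop hs (DD L) (X : ℂ[X]))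

open Polynomial in
/-- The matrix of the commutator family. -/
noncomputable def NM : Matrix (W × W) W ℂ[X] := LinearMap.toMatrix' (Nop hs (X : ℂ[X]))

open Polynomial in
theorem PM_map (t : ℂ) : (PM hs).map (eval t) = LinearMap.toMatrix' (Pop hs (DD L) t) := by
  ext i j
  rw [Matrix.map_apply, PM, LinearMap.toMatrix'_apply, LinearMap.toMatrix'_apply]
  have h := congrFun (map_Pop hs (evalRingHom t) (DD L) (X : ℂ[X]) (Pi.single j 1)) i
  simp only [coe_evalRingHom, eval_X] at h
  rw [h]
  have e : (fun k => eval t ((Pi.single j 1 : W → ℂ[X]) k)) = Pi.single j 1 := by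
    funext k
    by_cases hk : k = j
    · subst hk
      simp
    · simp [Pi.single_eq_of_ne hk]
  rw [e]

open Polynomial in
theorem NM_map (t : ℂ) : (NM hs).map (eval t) = LinearMap.toMatrix' (Nop hs t) := by
  ext i j
  rw [Matrix.map_apply, NM, LinearMap.toMatrix'_apply, LinearMap.toMatrix'_apply]
  have h := congrFun (map_Nop hs (evalRingHom t) (X : ℂ[X]) (Pi.single j 1)) i
  simp only [coe_evalRingHom, eval_X] at h
  rw [h]
  have e : (fun k => eval t ((Pi.single j 1 : W → ℂ[X]) k)) = Pi.single j 1 := by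
    funext k
    by_cases hk : k = j
    · subst hk
      simp
    · simp [Pi.single_eq_of_ne hk]
  rw [e]

theorem rank_toMatrix' {m n : Type*} [Fintype m] [Fintype n] [DecidableEq n]
    (T : (n → ℂ) →ₗ[ℂ] (m → ℂ)) :
    (LinearMap.toMatrix' T).rank = Module.finrank ℂ (LinearMap.range T) := by
  rw [Matrix.rank, ← Matrix.toLin'_apply', Matrix.toLin'_toMatrix']

/-- The two ranks add up to the size of `W`, for positive real parameters. -/
theorem rank_add (t : ℂ) (ht : ∃ r : ℝ, 0 < r ∧ t = r) :
    (Matrix.rank ((PM hs).map (Polynomial.eval t))) + (Matrix.rank ((NM hs).map (Polynomial.eval t))) =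
      Fintype.card W := by
  obtain ⟨r, hr, rfl⟩ := ht
  have hne : (r : ℂ) ≠ 0 := by exact_mod_cast hr.ne'
  rw [PM_map, NM_map, rank_toMatrix', rank_toMatrix', finrank_range_Pop hs _ hne,
    finrank_range_cas hs r hr]
  have h := LinearMap.finrank_range_add_finrank_ker (Nop hs (r : ℂ))
  rw [ker_Nop, Module.finrank_fintype_fun_eq_card] at h
  omega

/-- The dimension of the centre does not depend on the positive real parameter. -/
theorem finrank_Zc_const {t₁ t₂ : ℂ} (h₁ : ∃ r : ℝ, 0 < r ∧ t₁ = r) (h₂ : ∃ r : ℝ, 0 < r ∧ t₂ = r) :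
    Module.finrank ℂ (Zc hs t₁) = Module.finrank ℂ (Zc hs t₂) := by
  have hS : {t : ℂ | ∃ r : ℝ, 0 < r ∧ t = r}.Infinite := by
    have h : (Set.Ioi (0 : ℝ)).Infinite := Set.Ioi_infinite 0
    refine (h.image (f := fun r : ℝ => (r : ℂ)) (Complex.ofReal_injective.injOn)).mono ?_
    rintro _ ⟨r, hr, rfl⟩
    exact ⟨r, hr, rfl⟩
  have key := Rank.rank_const (PM hs) (NM hs) (Fintype.card W) _ hS (fun t ht => rank_add hs t ht) h₁ h₂
  have h3 : ∀ t : ℂ, (∃ r : ℝ, 0 < r ∧ t = r) →
      Module.finrank ℂ (Zc hs t) = Matrix.rank ((PM hs).map (Polynomial.eval t)) := by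
    rintro t ⟨r, hr, rfl⟩
    have hne : (r : ℂ) ≠ 0 := by exact_mod_cast hr.ne'
    rw [PM_map, rank_toMatrix', finrank_range_Pop hs _ hne, finrank_range_cas hs r hr]
  rw [h3 _ h₁, h3 _ h₂, key]

end Poly

/-! ### The group algebra at the parameter `1` -/

section One

variable {R : Type*} [CommRing R] (hs : Setup f L)
include hs

omit hs in
theorem Lop_one (i : ι) (v : W → R) (z : W) : Lop f L (1 : R) i v z = v (f i * z) := by
  rw [Lop_apply]
  split_ifs <;> simp

omit hs in
theorem Rop_one (i : ι) (v : W → R) (z : W) : Rop f L (1 : R) i v z = v (z * f i) := by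
  rw [Rop_apply]
  split_ifs <;> simp

theorem Lw_one' (l : List ι) (v : W → R) (z : W) :
    Lw f L (1 : R) l v z = v ((pr f l)⁻¹ * z) := by
  induction l generalizing z with
  | nil => simp
  | cons i l ih =>
    rw [Lw_cons, Module.End.mul_apply, Lop_one, ih, pr_cons, mul_inv_rev, inv_f hs, mul_assoc]

theorem Rw_one' (l : List ι) (v : W → R) (z : W) :
    Rw f L (1 : R) l v z = v (z * (pr f l)⁻¹) := by
  induction l generalizing v with
  | nil => simp
  | cons i l ih =>
    rw [Rw_cons, Module.End.mul_apply, ih, Rop_one, pr_cons, mul_inv_rev, inv_f hs, mul_assoc]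

theorem Lam_one' (a : W) (v : W → R) (z : W) : Lam hs (1 : R) a v z = v (a⁻¹ * z) := by
  rw [Lam, Lw_one' hs, wd_pr]

theorem Rho_one' (a : W) (v : W → R) (z : W) : Rho hs (1 : R) a v z = v (z * a⁻¹) := by
  rw [Rho, Rw_one' hs, wd_pr]

variable [Fintype W] [DecidableEq W]

/-- At the parameter `1` the centre consists of the class functions. -/
theorem finrank_Zc_one [Fintype (ConjClasses W)] :
    Module.finrank ℂ (Zc hs (1 : ℂ)) = Fintype.card (ConjClasses W) := by
  let g : (ConjClasses W → ℂ) →ₗ[ℂ] HA hs (1 : ℂ) :=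
    { toFun := fun c => HA.of fun z => c (ConjClasses.mk z)
      map_add' := fun _ _ => rfl
      map_smul' := fun _ _ => rfl }
  have hg : Function.Injective g := by
    intro c c' h
    funext K
    obtain ⟨z, rfl⟩ := ConjClasses.mk_surjective K
    exact congrFun (congrArg HA.fn h) z
  have hr : LinearMap.range g = Zc hs (1 : ℂ) := by
    apply le_antisymm
    · rintro _ ⟨c, rfl⟩
      rw [mem_Zc_iff_T]
      intro a
      apply HA.fn_injective
      rw [fn_T_mul, fn_mul_T]
      funext z
      rw [Lam_one', Rho_one']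
      show c (ConjClasses.mk _) = c (ConjClasses.mk _)
      congr 1
      rw [ConjClasses.mk_eq_mk_iff_isConj, isConj_iff]
      exact ⟨z, by group⟩
    · intro x hx
      have h1 := (mem_Zc_iff_T hs (1 : ℂ)).1 hx
      have h2 : ∀ a z, x (a * z * a⁻¹) = x z := by
        intro a z
        have h3 := congrFun (congrArg HA.fn (h1 a)) (a * z)
        rw [fn_T_mul, fn_mul_T, Lam_one', Rho_one'] at h3
        rw [← h3]
        simp
      have h3 : ∀ z w : W, IsConj z w → x z = x w := by
        intro z w hzw
        obtain ⟨c, hc⟩ := isConj_iff.1 hzw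
        rw [← hc, h2]
      refine ⟨fun K => x K.out, HA.fn_injective ?_⟩
      funext z
      show x (ConjClasses.mk z).out = x z
      apply h3
      exact ConjClasses.mk_eq_mk_iff_isConj.1 (Quotient.out_eq (ConjClasses.mk z))
  rw [← hr, LinearMap.finrank_range_of_inj hg, Module.finrank_fintype_fun_eq_card]

end One

end Cfsg.Agent.Lib.Hecke.Algebra
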