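import Cfsg.Agent.Lib.Hecke.Algebra
import Cfsg.Agent.Lib.ChevOrder.BNCount
import Cfsg.Agent.Lib.Blocks.Central
import Cfsg.Agent.Lib.Char.CompleteCor
import Cfsg.Agent.Lib.Char.PermChar
import Cfsg.Agent.Lib.Char.Clifford
import Cfsg.Prelude.Def_ParabolicCharacters

/-!
The Hecke algebra of a finite group with a (B,N)-pair inside the complex group algebra: the
elements `e g e` for the idempotent `e` of `B`, their multiplication rule, and the identification
of the centre with the span of the `χ e`.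
-/

set_option autoImplicit false
set_option linter.unusedSectionVars false

namespace Cfsg.Agent.Lib.Hecke.Group

open Cfsg Cfsg.Agent.Lib.BNPair.Basic Cfsg.Agent.Lib.BNPair.Parabolic
open Cfsg.Agent.Lib.ChevOrder.BNCount Cfsg.Agent.Lib.BNPair.CoxeterExchange
open Cfsg.Agent.Lib.Hecke.Algebra Cfsg.Agent.Lib.Blocks.Central
open scoped Classical

variable {G : Type*} [Group G] [Fintype G] (P : Cfsg.BNPair G)

/-- A group element in the group algebra. -/
noncomputable def oo (g : G) : MonoidAlgebra ℂ G := MonoidAlgebra.single g 1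

theorem oo_mul (g h : G) : oo g * oo h = oo (g * h) := by
  rw [oo, oo, oo, MonoidAlgebra.single_mul_single, mul_one]

/-- The idempotent of `B`. -/
noncomputable def ee : MonoidAlgebra ℂ G := (Nat.card P.B : ℂ)⁻¹ • ∑ b : P.B, oo (b : G)

theorem card_B_ne : (Nat.card P.B : ℂ) ≠ 0 := by
  exact_mod_cast Nat.card_pos.ne'

theorem ee_mul_oo {b : G} (hb : b ∈ P.B) : ee P * oo b = ee P := by
  rw [ee, smul_mul_assoc, Finset.sum_mul]
  congr 1
  refine Eq.trans ?_ (Equiv.sum_comp (Equiv.mulRight (⟨b, hb⟩ : P.B)) (fun x : P.B => oo (x : G)))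
  apply Finset.sum_congr rfl
  intro x _
  rw [oo_mul]
  rfl

theorem oo_mul_ee {b : G} (hb : b ∈ P.B) : oo b * ee P = ee P := by
  rw [ee, mul_smul_comm, Finset.mul_sum]
  congr 1
  refine Eq.trans ?_ (Equiv.sum_comp (Equiv.mulLeft (⟨b, hb⟩ : P.B)) (fun x : P.B => oo (x : G)))
  apply Finset.sum_congr rfl
  intro x _
  rw [oo_mul]
  rfl

/-- A left average over `B`. -/
theorem mul_ee_eq (a : MonoidAlgebra ℂ G) :
    a * ee P = (Nat.card P.B : ℂ)⁻¹ • ∑ b : P.B, a * oo (b : G) := by
  rw [ee, mul_smul_comm, Finset.mul_sum]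

theorem ee_idem : ee P * ee P = ee P := by
  rw [mul_ee_eq]
  have h : ∀ b : P.B, ee P * oo (b : G) = ee P := fun b => ee_mul_oo P b.2
  simp only [h, Finset.sum_const, Finset.card_univ, ← Nat.card_eq_fintype_card,
    ← Nat.cast_smul_eq_nsmul ℂ]
  rw [smul_smul, inv_mul_cancel₀ (card_B_ne P), one_smul]

/-- The double coset element. -/
noncomputable def dc (x : G) : MonoidAlgebra ℂ G := ee P * oo x * ee P

theorem dc_congr {x y : G} (h : y ∈ C P x) : dc P y = dc P x := by
  obtain ⟨b, hb, b', hb', rfl⟩ := mem_C.1 h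
  rw [dc, dc, ← oo_mul, ← oo_mul]
  calc ee P * (oo b * oo x * oo b') * ee P = (ee P * oo b) * oo x * (oo b' * ee P) := by
        simp only [mul_assoc]
    _ = ee P * oo x * ee P := by rw [ee_mul_oo P hb, oo_mul_ee P hb']

theorem oo_one : oo (1 : G) = 1 := rfl

theorem dc_of_mem_B {b : G} (hb : b ∈ P.B) : dc P b = ee P := by
  rw [dc, ee_mul_oo P hb, ee_idem]

theorem ee_mul_dc (x : G) : ee P * dc P x = dc P x := by
  rw [dc, ← mul_assoc, ← mul_assoc, ee_idem]

theorem dc_mul_ee (x : G) : dc P x * ee P = dc P x := by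
  rw [dc, mul_assoc, ee_idem]

/-- The product of two double coset elements as an average. -/
theorem dc_mul_dc (x y : G) :
    dc P x * dc P y = (Nat.card P.B : ℂ)⁻¹ • ∑ b : P.B, dc P (x * b * y) := by
  have h1 : dc P x * dc P y = ee P * oo x * ee P * oo y * ee P := by
    rw [dc, dc]
    calc ee P * oo x * ee P * (ee P * oo y * ee P)
        = ee P * oo x * (ee P * ee P) * oo y * ee P := by simp only [mul_assoc]
      _ = _ := by rw [ee_idem]
  rw [h1, mul_ee_eq P (ee P * oo x), smul_mul_assoc, smul_mul_assoc, Finset.sum_mul, Finset.sum_mul]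
  have h2 : ∀ b : P.B, ee P * oo x * oo (b : G) * oo y * ee P = dc P (x * b * y) := by
    intro b
    rw [dc, ← oo_mul, ← oo_mul]
    simp only [mul_assoc]
  simp only [h2]

/-- The multiplication rule when the length goes up. -/
theorem dc_mul_up {s n : G} (hs : s ∈ P.S) (hn : n ∈ P.N) (hle : len P n ≤ len P (s * n)) :
    dc P s * dc P n = dc P (s * n) := by
  rw [dc_mul_dc]
  have h : ∀ b : P.B, dc P (s * b * n) = dc P (s * n) := fun b =>
    dc_congr P (s_b_n_mem hn hs hle b.2)
  simp only [h, Finset.sum_const, Finset.card_univ, ← Nat.card_eq_fintype_card,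
    ← Nat.cast_smul_eq_nsmul ℂ]
  rw [smul_smul, inv_mul_cancel₀ (card_B_ne P), one_smul]

/-- The shape of the quadratic relation. -/
theorem dc_sq_exists {s : G} (hs : s ∈ P.S) :
    ∃ α : ℂ, dc P s * dc P s = α • ee P + (1 - α) • dc P s := by
  have h : ∀ b : P.B, dc P (s * b * s) = if s * b * s ∈ P.B then ee P else dc P s := by
    intro b
    have h1 := P.mul_mem_union s hs s (S_mem_N hs) b b.2
    split_ifs with h2
    · exact dc_of_mem_B P h2
    · rcases h1 with h1 | h1
      · exact absurd (C_one_eq_of_mem (P.sq_mem s hs) h1) h2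
      · exact dc_congr P h1
  refine ⟨(Nat.card P.B : ℂ)⁻¹ * ((Finset.univ.filter (fun b : P.B => s * b * s ∈ P.B)).card : ℂ), ?_⟩
  rw [dc_mul_dc]
  simp only [h]
  rw [Finset.sum_ite, Finset.sum_const, Finset.sum_const, ← Nat.cast_smul_eq_nsmul ℂ,
    ← Nat.cast_smul_eq_nsmul ℂ, smul_add, smul_smul, smul_smul]
  congr 2
  have h3 := Finset.card_filter_add_card_filter_not (s := (Finset.univ : Finset P.B)) (fun b : P.B => s * b * s ∈ P.B)
  rw [Finset.card_univ, ← Nat.card_eq_fintype_card] at h3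
  rw [← h3]
  push_cast
  have h4 := card_B_ne P
  rw [← h3] at h4
  push_cast at h4
  field_simp
  ring

/-! ### Coefficients of the double coset elements -/

/-- The augmentation. -/
noncomputable def aug (a : MonoidAlgebra ℂ G) : ℂ := ∑ g, a.coeff g

theorem aug_mul (a b : MonoidAlgebra ℂ G) : aug (a * b) = aug a * aug b := by
  simp only [aug, coeff_mul_eq_sum, Finset.sum_mul_sum]
  rw [Finset.sum_comm]
  apply Finset.sum_congr rfl
  intro x _
  rw [← Finset.mul_sum]
  rw [← Finset.mul_sum]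
  congr 1
  exact Equiv.sum_comp (Equiv.mulLeft x⁻¹) (fun y => b.coeff y)

theorem coeff_oo (g h : G) : (oo g).coeff h = if h = g then 1 else 0 := by
  rw [oo, MonoidAlgebra.coeff_single, Finsupp.single_apply]
  simp [eq_comm]

theorem aug_oo (g : G) : aug (oo g) = 1 := by
  simp [aug, coeff_oo]

theorem aug_add (a b : MonoidAlgebra ℂ G) : aug (a + b) = aug a + aug b := by
  simp [aug, Finset.sum_add_distrib]

theorem aug_smul (c : ℂ) (a : MonoidAlgebra ℂ G) : aug (c • a) = c * aug a := by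
  simp [aug, Finset.mul_sum]

theorem aug_sum {κ : Type*} (s : Finset κ) (g : κ → MonoidAlgebra ℂ G) :
    aug (∑ k ∈ s, g k) = ∑ k ∈ s, aug (g k) := by
  induction s using Finset.induction_on with
  | empty => simp [aug]
  | insert a s ha ih => rw [Finset.sum_insert ha, Finset.sum_insert ha, aug_add, ih]

theorem aug_ee : aug (ee P) = 1 := by
  rw [ee, aug_smul, aug_sum]
  simp only [aug_oo, Finset.sum_const, Finset.card_univ, ← Nat.card_eq_fintype_card, nsmul_eq_mul,
    mul_one]
  exact inv_mul_cancel₀ (card_B_ne P)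

theorem aug_dc (x : G) : aug (dc P x) = 1 := by
  rw [dc, aug_mul, aug_mul, aug_ee, aug_oo]
  ring

/-- The coefficient function of `dc x` is invariant under `B`. -/
theorem coeff_dc_of_mem {x g : G} (hg : g ∈ C P x) : (dc P x).coeff g = (dc P x).coeff x := by
  obtain ⟨b, hb, b', hb', rfl⟩ := mem_C.1 hg
  have h1 : dc P x = oo b * dc P x * oo b' := by
    rw [dc]
    calc ee P * oo x * ee P = (oo b * ee P) * oo x * (ee P * oo b') := by
          rw [oo_mul_ee P hb, ee_mul_oo P hb']
      _ = _ := by simp only [mul_assoc]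
  conv_lhs => rw [h1]
  rw [oo, oo, MonoidAlgebra.coeff_mul_single_apply, MonoidAlgebra.coeff_single_mul_apply]
  simp [mul_assoc]

theorem coeff_ee_of_not_mem {y : G} (hy : y ∉ P.B) : (ee P).coeff y = 0 := by
  rw [ee]
  simp only [MonoidAlgebra.coeff_smul, MonoidAlgebra.coeff_sum, Finsupp.smul_apply,
    Finsupp.finsetSum_apply, coeff_oo]
  rw [Finset.sum_eq_zero, smul_zero]
  intro b _
  rw [if_neg]
  rintro rfl
  exact hy b.2

/-- The coefficient function of `dc x` vanishes off the double coset. -/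
theorem coeff_dc_of_not_mem {x g : G} (hg : g ∉ C P x) : (dc P x).coeff g = 0 := by
  rw [dc, coeff_mul_eq_sum]
  apply Finset.sum_eq_zero
  intro y _
  rw [oo, MonoidAlgebra.coeff_mul_single_apply, mul_one]
  by_cases h1 : y * x⁻¹ ∈ P.B
  · by_cases h2 : y⁻¹ * g ∈ P.B
    · exfalso
      apply hg
      refine mem_C.2 ⟨_, h1, _, h2, ?_⟩
      group
    · rw [coeff_ee_of_not_mem P h2, mul_zero]
  · rw [coeff_ee_of_not_mem P h1, zero_mul]

/-- The value of the coefficient on the double coset. -/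
theorem coeff_dc_self (x : G) : (dc P x).coeff x * (Nat.card (C P x) : ℂ) = 1 := by
  have h := aug_dc P x
  rw [aug, ← Finset.sum_filter_add_sum_filter_not Finset.univ (· ∈ C P x)] at h
  have h1 : ∑ g ∈ Finset.univ.filter (· ∈ C P x), (dc P x).coeff g =
      (Nat.card (C P x) : ℂ) * (dc P x).coeff x := by
    rw [Finset.sum_congr rfl (fun g hg => coeff_dc_of_mem P (Finset.mem_filter.1 hg).2),
      Finset.sum_const, nsmul_eq_mul]
    congr 2
    rw [Nat.card_eq_fintype_card, Fintype.card_subtype]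
  have h2 : ∑ g ∈ Finset.univ.filter (fun g => ¬ g ∈ C P x), (dc P x).coeff g = 0 :=
    Finset.sum_eq_zero fun g hg => coeff_dc_of_not_mem P (Finset.mem_filter.1 hg).2
  rw [h1, h2, add_zero] at h
  rw [mul_comm]
  exact h

theorem coeff_dc_self_ne (x : G) : (dc P x).coeff x ≠ 0 :=
  left_ne_zero_of_mul_eq_one (coeff_dc_self P x)

/-- The exact relation: for a generator with `|BsB| = q |B|`. -/
theorem dc_sq {s : G} (hs : s ∈ P.S) {q : ℕ} (hq : Nat.card (C P s) = q * Nat.card P.B) :
    dc P s * dc P s = (q : ℂ)⁻¹ • ee P + (1 - (q : ℂ)⁻¹) • dc P s := by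
  obtain ⟨α, hα⟩ := dc_sq_exists P hs
  have hB := card_B_ne P
  have hq0 : (q : ℂ) ≠ 0 := by
    intro h
    have h1 : (Nat.card (C P s) : ℂ) = 0 := by
      rw [hq]
      push_cast
      rw [h, zero_mul]
    have h2 := coeff_dc_self P s
    rw [h1, mul_zero] at h2
    exact zero_ne_one h2
  have hCs : ((Nat.card (C P s) : ℕ) : ℂ) ≠ 0 := by
    rw [hq]
    push_cast
    exact mul_ne_zero hq0 hB
  -- the coefficient at `1` of the product
  have h1 : (dc P s * dc P s).coeff 1 = (Nat.card (C P s) : ℂ)⁻¹ := by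
    rw [coeff_mul_eq_sum, ← Finset.sum_filter_add_sum_filter_not Finset.univ (· ∈ C P s)]
    have hv : (dc P s).coeff s = (Nat.card (C P s) : ℂ)⁻¹ :=
      eq_inv_of_mul_eq_one_left (coeff_dc_self P s)
    have h2 : ∑ y ∈ Finset.univ.filter (· ∈ C P s), (dc P s).coeff y * (dc P s).coeff (y⁻¹ * 1) =
        (Nat.card (C P s) : ℂ) * ((Nat.card (C P s) : ℂ)⁻¹ * (Nat.card (C P s) : ℂ)⁻¹) := by
      have h3 : ∀ y ∈ Finset.univ.filter (· ∈ C P s), (dc P s).coeff y * (dc P s).coeff (y⁻¹ * 1) =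
          (Nat.card (C P s) : ℂ)⁻¹ * (Nat.card (C P s) : ℂ)⁻¹ := by
        intro y hy
        have hy' := (Finset.mem_filter.1 hy).2
        have hyi : y⁻¹ ∈ C P s := by
          have := inv_mem_C hy'
          rwa [C_s_inv hs] at this
        rw [mul_one, coeff_dc_of_mem P hy', coeff_dc_of_mem P hyi, hv]
      rw [Finset.sum_congr rfl h3, Finset.sum_const, nsmul_eq_mul]
      congr 2
      rw [Nat.card_eq_fintype_card, Fintype.card_subtype]
    have h4 : ∑ y ∈ Finset.univ.filter (fun y => ¬ y ∈ C P s),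
        (dc P s).coeff y * (dc P s).coeff (y⁻¹ * 1) = 0 :=
      Finset.sum_eq_zero fun y hy => by
        rw [coeff_dc_of_not_mem P (Finset.mem_filter.1 hy).2, zero_mul]
    rw [h2, h4, add_zero, ← mul_assoc, mul_inv_cancel₀ hCs, one_mul]
  have h2 : (dc P s).coeff 1 = 0 := by
    apply coeff_dc_of_not_mem
    intro h
    obtain ⟨b, hb, b', hb', e⟩ := mem_C.1 h
    have : s = b⁻¹ * b'⁻¹ := by
      have e' : b * s * b' = 1 := e.symm
      calc s = b⁻¹ * (b * s * b') * b'⁻¹ := by group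
        _ = b⁻¹ * b'⁻¹ := by rw [e']; group
    exact s_not_mem_B hs (this ▸ P.B.mul_mem (P.B.inv_mem hb) (P.B.inv_mem hb'))
  have h3 : (ee P).coeff 1 = (Nat.card P.B : ℂ)⁻¹ := by
    have h4 := coeff_dc_self P (1 : G)
    rw [dc_of_mem_B P P.B.one_mem] at h4
    have h5 : Nat.card (C P (1 : G)) = Nat.card P.B := by
      have : C P (1 : G) = (P.B : Set G) := C_eq_B P.B.one_mem
      rw [this]
      rfl
    rw [h5] at h4
    exact eq_inv_of_mul_eq_one_left h4
  have h4 := congrArg (fun a => a.coeff 1) hα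
  simp only [MonoidAlgebra.coeff_add, Finsupp.add_apply, MonoidAlgebra.coeff_smul,
    Finsupp.smul_apply, smul_eq_mul] at h4
  rw [h1, h2, h3, mul_zero, add_zero, hq] at h4
  push_cast at h4
  have hαq : α = (q : ℂ)⁻¹ := by
    rw [mul_inv] at h4
    exact (mul_right_cancel₀ (inv_ne_zero hB) h4).symm
  rw [← hαq]
  exact hα

/-! ### The Weyl group and the Hecke algebra -/

section Weyl

variable {ι : Type*} (e : ι → G) (he : ∀ i, e i ∈ P.S) (hes : ∀ s ∈ P.S, ∃ i, e i = s)
variable (q : ℕ) (hq : ∀ s ∈ P.S, Nat.card (C P s) = q * Nat.card P.B) (hq0 : 0 < q)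

/-- A representative of an element of the Weyl group. -/
noncomputable def nn (w : WW P) : G := ((Quotient.out w : P.N) : G)

omit [Fintype G] in
theorem mk_nn (w : WW P) : (QuotientGroup.mk (Quotient.out w : P.N) : WW P) = w :=
  QuotientGroup.out_eq' w

theorem dc_mk (n : P.N) : dc P (nn P (QuotientGroup.mk n)) = dc P (n : G) := by
  apply dc_congr
  have h := (mk_eq _ _).1 (mk_nn P (QuotientGroup.mk n))
  have h1 := C_eq_of_inv_mul_mem (P := P) h
  rw [← h1]
  exact self_mem_C _

/-- The basis element `q^ℓ(w) e n_w e`. -/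
noncomputable def Th (w : WW P) : MonoidAlgebra ℂ G := (q : ℂ) ^ LL P w • dc P (nn P w)

theorem ee_mul_Th (w : WW P) : ee P * Th P q w = Th P q w := by
  rw [Th, mul_smul_comm, ee_mul_dc]

theorem Th_mul_ee (w : WW P) : Th P q w * ee P = Th P q w := by
  rw [Th, smul_mul_assoc, dc_mul_ee]

include he hes in
theorem Th_one : Th P q (1 : WW P) = ee P := by
  have h1 : dc P (nn P (1 : WW P)) = dc P ((1 : P.N) : G) := dc_mk P 1
  have h2 : LL P (1 : WW P) = 0 := Cfsg.Agent.Lib.ChevOrder.Cox.len_one (setup e he hes)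
  rw [Th, h1, h2, pow_zero, one_smul]
  exact dc_of_mem_B P P.B.one_mem

theorem dc_ff (i : ι) : dc P (nn P (ff e he i)) = dc P (e i) :=
  dc_mk P ⟨e i, P.subset (he i)⟩

include hes in
theorem Th_ff (i : ι) : Th P q (ff e he i) = (q : ℂ) • dc P (e i) := by
  rw [Th, dc_ff, len_f (setup e he hes), pow_one]

include hes in
theorem Th_up (i : ι) (w : WW P) (hw : LL P w < LL P (ff e he i * w)) :
    Th P q (ff e he i) * Th P q w = Th P q (ff e he i * w) := by
  have hN : nn P w ∈ P.N := (Quotient.out w : P.N).2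
  have h1 : ff e he i * w = QuotientGroup.mk (⟨e i, P.subset (he i)⟩ * Quotient.out w : P.N) := by
    conv_lhs => rw [← mk_nn P w]
    rfl
  have h2 : LL P w = len P (nn P w) := rfl
  have h3 : LL P (ff e he i * w) = len P (e i * nn P w) := by
    rw [h1, LL_mk]
    rfl
  have h4 : dc P (nn P (ff e he i * w)) = dc P (e i * nn P w) := by
    rw [h1, dc_mk]
    rfl
  have h5 := dc_mul_up P (he i) hN (by omega)
  have h6 : LL P (ff e he i * w) = LL P w + 1 := by
    rcases Cfsg.Agent.Lib.ChevOrder.Cox.len_f_mul_lt_or (setup e he hes) i w with h | h <;> omega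
  rw [Th_ff P e he hes, Th, Th, h4, h6, smul_mul_assoc, mul_smul_comm, h5, smul_smul, pow_succ']

include hes hq in
theorem Th_ff_sq (i : ι) (hq0 : 0 < q) :
    Th P q (ff e he i) * Th P q (ff e he i) =
      (q : ℂ) • ee P + ((q : ℂ) - 1) • Th P q (ff e he i) := by
  have h := dc_sq P (he i) (hq (e i) (he i))
  have hq1 : (q : ℂ) ≠ 0 := by exact_mod_cast hq0.ne'
  have c1 : (q : ℂ) * (q : ℂ) * (q : ℂ)⁻¹ = q := by field_simp
  have c2 : (q : ℂ) * (q : ℂ) * (1 - (q : ℂ)⁻¹) = ((q : ℂ) - 1) * q := by field_simp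
  rw [Th_ff P e he hes, smul_mul_assoc, mul_smul_comm, h, smul_smul, smul_add, smul_smul,
    smul_smul, c1, c2, smul_smul]

include hes hq in
theorem Th_down (i : ι) (w : WW P) (hw : LL P (ff e he i * w) < LL P w) (hq0 : 0 < q) :
    Th P q (ff e he i) * Th P q w =
      (q : ℂ) • Th P q (ff e he i * w) + ((q : ℂ) - 1) • Th P q w := by
  have hs := setup e he hes
  have h1 : ff e he i * (ff e he i * w) = w := hs.cancel_left i w
  have h2 : Th P q w = Th P q (ff e he i) * Th P q (ff e he i * w) := by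
    rw [Th_up P e he hes q i (ff e he i * w) (by rw [h1]; exact hw), h1]
  conv_lhs => rw [h2]
  rw [← mul_assoc, Th_ff_sq P e he hes q hq i hq0, add_mul, smul_mul_assoc, smul_mul_assoc,
    ee_mul_Th, ← h2]

variable [Fintype (WW P)] [DecidableEq (WW P)]

/-- The linear map from the coordinate space to the group algebra. -/
noncomputable def Thv : (WW P → ℂ) →ₗ[ℂ] MonoidAlgebra ℂ G where
  toFun v := ∑ w, v w • Th P q w
  map_add' u v := by simp only [Pi.add_apply, add_smul, Finset.sum_add_distrib]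
  map_smul' c v := by simp only [Pi.smul_apply, smul_eq_mul, mul_smul, ← Finset.smul_sum,
    RingHom.id_apply]

theorem Thv_apply (v : WW P → ℂ) : Thv P q v = ∑ w, v w • Th P q w := rfl

theorem Thv_single (w : WW P) : Thv P q (Pi.single w 1) = Th P q w := by
  rw [Thv_apply, Finset.sum_eq_single w]
  · simp
  · intro b _ hb
    simp [Pi.single_eq_of_ne hb]
  · simp

theorem ee_mul_Thv (v : WW P → ℂ) : ee P * Thv P q v = Thv P q v := by
  rw [Thv_apply, Finset.mul_sum]
  apply Finset.sum_congr rfl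
  intro w _
  rw [mul_smul_comm, ee_mul_Th]

theorem Thv_mul_ee (v : WW P → ℂ) : Thv P q v * ee P = Thv P q v := by
  rw [Thv_apply, Finset.sum_mul]
  apply Finset.sum_congr rfl
  intro w _
  rw [smul_mul_assoc, Th_mul_ee]

include hes hq hq0 in
/-- The left operators correspond to the multiplication by the generators. -/
theorem Thv_Lop (i : ι) (v : WW P → ℂ) :
    Thv P q (Lop (ff e he) (LL P) (q : ℂ) i v) = Th P q (ff e he i) * Thv P q v := by
  have hs := setup e he hes
  have key : (Thv P q) ∘ₗ (Lop (ff e he) (LL P) (q : ℂ) i) =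
      (LinearMap.mulLeft ℂ (Th P q (ff e he i))) ∘ₗ (Thv P q) := by
    apply LinearMap.pi_ext'
    intro w
    apply LinearMap.ext_ring
    simp only [LinearMap.coe_comp, Function.comp_apply, LinearMap.single_apply,
      LinearMap.mulLeft_apply]
    have h1 := Cfsg.Agent.Lib.ChevOrder.Cox.len_f_mul_lt_or hs i w
    rw [Thv_single]
    by_cases h : LL P w < LL P (ff e he i * w)
    · rw [Lop_single_up hs _ i h, Thv_single, Th_up P e he hes q i w h]
    · have h' : LL P (ff e he i * w) < LL P w := by omega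
      rw [Lop_single_down hs _ i h', map_add, map_smul, map_smul, Thv_single, Thv_single,
        Th_down P e he hes q hq i w h' hq0]
  exact LinearMap.congr_fun key v

include hes hq hq0 in
theorem Thv_Lw (l : List ι) (v : WW P → ℂ) :
    Thv P q (Lw (ff e he) (LL P) (q : ℂ) l v) = pr (fun i => Th P q (ff e he i)) l * Thv P q v := by
  induction l with
  | nil => simp
  | cons i l ih =>
    rw [Lw_cons, Module.End.mul_apply, Thv_Lop P e he hes q hq hq0, ih, pr_cons, mul_assoc]

include hes hq hq0 in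
/-- The elements `Th w` multiply as in the Hecke algebra. -/
theorem Thv_T_mul (hs : Setup (ff e he) (LL P)) (a : WW P) (y : HA hs (q : ℂ)) :
    Thv P q (T hs (q : ℂ) a * y).fn = Th P q a * Thv P q y.fn := by
  have h1 : Thv P q (Lam hs (q : ℂ) a y.fn) = pr (fun i => Th P q (ff e he i)) (wd hs a) * Thv P q y.fn :=
    Thv_Lw P e he hes q hq hq0 _ _
  have h2 : Th P q a = pr (fun i => Th P q (ff e he i)) (wd hs a) * ee P := by
    have h3 := Thv_Lw P e he hes q hq hq0 (wd hs a) (Pi.single 1 1)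
    rw [Thv_single, Th_one P e he hes q] at h3
    rw [← h3, ← Thv_single]
    congr 1
    exact (Lam_one_single hs (q : ℂ) a).symm
  rw [fn_T_mul, h1, h2, mul_assoc, ee_mul_Thv]

/-- The map from the Hecke algebra. -/
noncomputable def Phi (hs : Setup (ff e he) (LL P)) : HA hs (q : ℂ) →ₗ[ℂ] MonoidAlgebra ℂ G :=
  (Thv P q) ∘ₗ HA.lin.toLinearMap

theorem Phi_apply (hs : Setup (ff e he) (LL P)) (x : HA hs (q : ℂ)) :
    Phi P e he q hs x = Thv P q x.fn := rfl

theorem Phi_T (hs : Setup (ff e he) (LL P)) (a : WW P) :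
    Phi P e he q hs (T hs (q : ℂ) a) = Th P q a := Thv_single P q a

include hes hq hq0 in
theorem Phi_mul (hs : Setup (ff e he) (LL P)) (x y : HA hs (q : ℂ)) :
    Phi P e he q hs (x * y) = Phi P e he q hs x * Phi P e he q hs y := by
  conv_lhs => rw [HA_eq_sum hs (q : ℂ) x, Finset.sum_mul, map_sum]
  conv_rhs => rw [HA_eq_sum hs (q : ℂ) x, map_sum, Finset.sum_mul]
  apply Finset.sum_congr rfl
  intro a _
  rw [smul_mul_assoc, map_smul, map_smul, smul_mul_assoc, Phi_T, Phi_apply,
    Thv_T_mul P e he hes q hq hq0 hs a y]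
  rfl

theorem ee_mul_Phi (hs : Setup (ff e he) (LL P)) (x : HA hs (q : ℂ)) :
    ee P * Phi P e he q hs x = Phi P e he q hs x := ee_mul_Thv P q x.fn

theorem Phi_mul_ee (hs : Setup (ff e he) (LL P)) (x : HA hs (q : ℂ)) :
    Phi P e he q hs x * ee P = Phi P e he q hs x := Thv_mul_ee P q x.fn

include hq0 in
/-- The map is injective. -/
theorem Phi_injective (hs : Setup (ff e he) (LL P)) : Function.Injective (Phi P e he q hs) := by
  rw [← LinearMap.ker_eq_bot, LinearMap.ker_eq_bot']
  intro x hx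
  have hq1 : (q : ℂ) ≠ 0 := by exact_mod_cast hq0.ne'
  ext w
  have h1 := congrArg (fun a => a.coeff (nn P w)) hx
  simp only [Phi_apply, Thv_apply, MonoidAlgebra.coeff_sum, Finsupp.finsetSum_apply,
    MonoidAlgebra.coeff_smul, Finsupp.smul_apply, smul_eq_mul] at h1
  rw [Finset.sum_eq_single w] at h1
  · have h2 : (Th P q w).coeff (nn P w) ≠ 0 := by
      rw [Th]
      simp only [MonoidAlgebra.coeff_smul, Finsupp.smul_apply, smul_eq_mul]
      exact mul_ne_zero (pow_ne_zero _ hq1) (coeff_dc_self_ne P _)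
    have h3 : (0 : MonoidAlgebra ℂ G).coeff (nn P w) = 0 := by simp
    rw [h3] at h1
    exact (mul_eq_zero.1 h1).resolve_right h2
  · intro u _ hu
    have h2 : (Th P q u).coeff (nn P w) = 0 := by
      rw [Th]
      simp only [MonoidAlgebra.coeff_smul, Finsupp.smul_apply, smul_eq_mul]
      rw [coeff_dc_of_not_mem, mul_zero]
      intro h3
      apply hu
      have h4 := C_eq_of_mem_both h3 (self_mem_C (nn P w))
      have h5 := (C_eq_iff (Quotient.out u : P.N).2 (Quotient.out w : P.N).2).1 h4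
      rw [← mk_nn P u, ← mk_nn P w]
      exact (mk_eq _ _).2 h5
    rw [h2, mul_zero]
  · simp

include hes hq0 in
/-- A `B`-biinvariant element comes from the Hecke algebra. -/
theorem exists_Phi (hs : Setup (ff e he) (LL P)) {a : MonoidAlgebra ℂ G}
    (ha : ee P * a * ee P = a) : ∃ x : HA hs (q : ℂ), Phi P e he q hs x = a := by
  have hq1 : (q : ℂ) ≠ 0 := by exact_mod_cast hq0.ne'
  have h1 : a = ∑ g, a.coeff g • dc P g := by
    conv_lhs => rw [← ha, eq_sum_single a, Finset.mul_sum, Finset.sum_mul]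
    apply Finset.sum_congr rfl
    intro g _
    have : MonoidAlgebra.single g (a.coeff g) = a.coeff g • oo g := by
      rw [oo, MonoidAlgebra.smul_single, smul_eq_mul, mul_one]
    rw [this, mul_smul_comm, smul_mul_assoc]
    rfl
  have h2 : ∀ g, ∃ x : HA hs (q : ℂ), Phi P e he q hs x = dc P g := by
    intro g
    obtain ⟨n, hn, hg⟩ := bruhat_exists (P := P) g
    refine ⟨((q : ℂ) ^ LL P (QuotientGroup.mk (⟨n, hn⟩ : P.N)))⁻¹ •
      T hs (q : ℂ) (QuotientGroup.mk (⟨n, hn⟩ : P.N)), ?_⟩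
    rw [map_smul, Phi_T, Th, smul_smul, inv_mul_cancel₀ (pow_ne_zero _ hq1), one_smul, dc_mk,
      dc_congr P hg]
  choose x hx using h2
  refine ⟨∑ g, a.coeff g • x g, ?_⟩
  rw [map_sum]
  conv_rhs => rw [h1]
  apply Finset.sum_congr rfl
  intro g _
  rw [map_smul, hx]

end Weyl

/-! ### Characters -/

section Chars

open Cfsg.Agent.Lib.Char.Complete Cfsg.Agent.Lib.Char.Ortho Cfsg.Agent.Lib.Char.CompleteCor

/-- The central element of a character, up to a scalar. -/
noncomputable def EE (χ : G → ℂ) : MonoidAlgebra ℂ G := ofFun fun g => χ g⁻¹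

theorem coeff_EE (χ : G → ℂ) (g : G) : (EE χ).coeff g = χ g⁻¹ := by
  rw [EE, coeff_ofFun]

theorem isClass_EE {χ : G → ℂ} (hχ : IsClassFunction G χ) : IsClassFunction G (EE χ).coeff := by
  intro g h
  rw [coeff_EE, coeff_EE]
  have : (h * g * h⁻¹)⁻¹ = h * g⁻¹ * h⁻¹ := by group
  rw [this, hχ]

theorem EE_comm {χ : G → ℂ} (hχ : IsClassFunction G χ) (a : MonoidAlgebra ℂ G) :
    EE χ * a = a * EE χ := mul_comm_of_isClassFunction (isClass_EE hχ) a

theorem omega_EE {φ χ : G → ℂ} (hφ : IsIrrCharacter G φ) (hχ : IsIrrCharacter G χ) :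
    omega φ (EE χ) = if φ = χ then (Nat.card G : ℂ) / χ 1 else 0 := by
  have h1 : ∑ g, (EE χ).coeff g * φ g = (Nat.card G : ℂ) * classInner φ χ := by
    rw [classInner, ← mul_assoc, mul_inv_cancel₀ (by exact_mod_cast Nat.card_pos.ne'), one_mul]
    apply Finset.sum_congr rfl
    intro g _
    rw [coeff_EE, isIrr_inv hχ g]
    ring
  rw [omega, h1, classInner_irr hφ hχ]
  split_ifs with h
  · subst h
    simp
  · simp

/-- A central element is determined by its central characters. -/
theorem central_eq_zero {a : MonoidAlgebra ℂ G} (ha : IsClassFunction G a.coeff)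
    (H : ∀ φ : G → ℂ, IsIrrCharacter G φ → omega φ a = 0) : a = 0 := by
  have h1 := eq_zero_of_forall_irr a.coeff ha (fun χ hχ => by
    have h2 := H χ hχ
    rw [omega, div_eq_zero_iff] at h2
    rcases h2 with h2 | h2
    · exact h2
    · exact absurd h2 (irr_apply_one_ne_zero hχ))
  apply ext_coeff
  intro g
  rw [h1]
  simp

theorem isClass_sub {a b : MonoidAlgebra ℂ G} (ha : IsClassFunction G a.coeff)
    (hb : IsClassFunction G b.coeff) : IsClassFunction G (a - b).coeff := by
  have : a - b = a + (-1 : ℂ) • b := by rw [neg_one_smul, sub_eq_add_neg]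
  rw [this]
  exact isClassFunction_add ha (isClassFunction_smul _ hb)

/-- Generalised orthogonality. -/
theorem EE_mul_EE {χ ψ : G → ℂ} (hχ : IsIrrCharacter G χ) (hψ : IsIrrCharacter G ψ) :
    EE χ * EE ψ = if χ = ψ then ((Nat.card G : ℂ) / χ 1) • EE χ else 0 := by
  have cχ := isClass_EE (isIrr_classFunction hχ)
  have cψ := isClass_EE (isIrr_classFunction hψ)
  rw [← sub_eq_zero]
  apply central_eq_zero
  · split_ifs with h
    · exact isClass_sub (isClassFunction_mul cχ cψ) (isClassFunction_smul _ cχ)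
    · exact isClass_sub (isClassFunction_mul cχ cψ) (by intro g h; simp)
  · intro φ hφ
    by_cases h : χ = ψ
    · subst h
      rw [if_pos rfl, omega_sub, omega_mul hφ cχ, omega_smul, omega_EE hφ hχ]
      split_ifs <;> ring
    · rw [if_neg h, omega_sub, omega_mul hφ cχ, omega_zero, omega_EE hφ hχ, omega_EE hφ hψ]
      by_cases h1 : φ = χ
      · rw [if_neg (fun h2 => h (h1.symm.trans h2))]
        ring
      · rw [if_neg h1]
        ring

/-! ### The elements `χ e` -/

/-- The element `χ e`. -/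
noncomputable def yy (χ : G → ℂ) : MonoidAlgebra ℂ G := EE χ * ee P

theorem yy_bi {χ : G → ℂ} (hχ : IsClassFunction G χ) : ee P * yy P χ * ee P = yy P χ := by
  rw [yy, ← mul_assoc, ← EE_comm hχ, mul_assoc (EE χ), ee_idem, mul_assoc, ee_idem]

theorem yy_mul_yy {χ : G → ℂ} (hχ : IsIrrCharacter G χ) :
    yy P χ * yy P χ = ((Nat.card G : ℂ) / χ 1) • yy P χ := by
  have h := EE_mul_EE hχ hχ
  rw [if_pos rfl] at h
  rw [yy, mul_assoc, ← mul_assoc (ee P), ← EE_comm (isIrr_classFunction hχ), mul_assoc (EE χ),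
    ee_idem, ← mul_assoc, h, smul_mul_assoc]

theorem coeff_yy {χ : G → ℂ} (x : G) :
    (yy P χ).coeff x = (Nat.card P.B : ℂ)⁻¹ * ∑ b : P.B, χ ((b : G) * x⁻¹) := by
  rw [yy, mul_ee_eq]
  simp only [MonoidAlgebra.coeff_smul, MonoidAlgebra.coeff_sum, Finsupp.smul_apply,
    Finsupp.finsetSum_apply, smul_eq_mul]
  congr 1
  apply Finset.sum_congr rfl
  intro b _
  rw [oo, MonoidAlgebra.coeff_mul_single_apply, mul_one, coeff_EE]
  congr 1
  group

theorem conj_coeff_yy {χ : G → ℂ} (hχ : IsIrrCharacter G χ) (x : G) :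
    (starRingEnd ℂ) ((yy P χ).coeff x) = (yy P χ).coeff x⁻¹ := by
  rw [coeff_yy, coeff_yy, map_mul, map_inv₀, map_natCast, map_sum]
  congr 1
  simp only [inv_inv]
  refine Eq.trans ?_ (Equiv.sum_comp (Equiv.inv P.B) (fun b : P.B => χ ((b : G) * x)))
  apply Finset.sum_congr rfl
  intro b _
  rw [← isIrr_inv hχ]
  have h1 : ((b : G) * x⁻¹)⁻¹ = x * (b : G)⁻¹ := by group
  have h2 : x * (b : G)⁻¹ = (b : G) * ((b : G)⁻¹ * x) * (b : G)⁻¹ := by group
  rw [h1, h2, isIrr_classFunction hχ]
  rfl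

/-- The element vanishes when its coefficient at `1` does. -/
theorem yy_eq_zero {χ : G → ℂ} (hχ : IsIrrCharacter G χ) (h : (yy P χ).coeff 1 = 0) : yy P χ = 0 := by
  have h1 := congrArg (fun a => a.coeff 1) (yy_mul_yy P hχ)
  simp only [MonoidAlgebra.coeff_smul, Finsupp.smul_apply, smul_eq_mul, h, mul_zero] at h1
  rw [coeff_mul_eq_sum] at h1
  have h2 : ∀ x, (yy P χ).coeff x * (yy P χ).coeff (x⁻¹ * 1) = ((‖(yy P χ).coeff x‖ ^ 2 : ℝ) : ℂ) := by
    intro x
    rw [mul_one, ← conj_coeff_yy P hχ, Complex.mul_conj, Complex.normSq_eq_norm_sq]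
  simp only [h2] at h1
  have h3 : ∑ x, ‖(yy P χ).coeff x‖ ^ 2 = 0 := by exact_mod_cast h1
  have h4 := (Finset.sum_eq_zero_iff_of_nonneg (fun x _ => sq_nonneg _)).1 h3
  apply ext_coeff
  intro x
  have h5 := h4 x (Finset.mem_univ x)
  simpa using h5

theorem EE_mul_yy {ψ χ : G → ℂ} (hψ : IsIrrCharacter G ψ) (hχ : IsIrrCharacter G χ) :
    EE ψ * yy P χ = if ψ = χ then ((Nat.card G : ℂ) / ψ 1) • yy P ψ else 0 := by
  rw [yy, ← mul_assoc, EE_mul_EE hψ hχ]
  split_ifs
  · rw [smul_mul_assoc]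
    rfl
  · rw [zero_mul]

/-- Central elements are combinations of the `EE χ`. -/
theorem central_eq_sum [Fintype (IrrCharacter G)] {a : MonoidAlgebra ℂ G}
    (ha : IsClassFunction G a.coeff) :
    ∃ μ : IrrCharacter G → ℂ, a = ∑ χ, μ χ • EE (χ : G → ℂ) := by
  have hψ : IsClassFunction G (fun g => a.coeff g⁻¹) := by
    intro g h
    have : (h * g * h⁻¹)⁻¹ = h * g⁻¹ * h⁻¹ := by group
    simp only [this, ha g⁻¹ h]
  have h1 := eq_sum_classInner _ hψ
  refine ⟨fun χ => classInner (fun g => a.coeff g⁻¹) (χ : G → ℂ), ?_⟩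
  apply ext_coeff
  intro g
  have h2 := congrFun h1 g⁻¹
  simp only [inv_inv, Finset.sum_apply, Pi.smul_apply, smul_eq_mul] at h2
  rw [h2]
  simp only [MonoidAlgebra.coeff_sum, Finsupp.finsetSum_apply, MonoidAlgebra.coeff_smul,
    Finsupp.smul_apply, smul_eq_mul, coeff_EE]

end Chars

/-! ### The centre of the Hecke algebra -/

section Center

open Cfsg.Agent.Lib.Char.CompleteCor Cfsg.Agent.Lib.Char.Ortho Cfsg.Agent.Lib.Char.Complete

variable {ι : Type*} (e : ι → G) (he : ∀ i, e i ∈ P.S) (hes : ∀ s ∈ P.S, ∃ i, e i = s)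
variable (q : ℕ) (hq : ∀ s ∈ P.S, Nat.card (C P s) = q * Nat.card P.B) (hq0 : 0 < q)
variable [Fintype (WW P)] [DecidableEq (WW P)] (hs : Setup (ff e he) (LL P))

/-- The conjugated sandwich. -/
noncomputable def sw (a : MonoidAlgebra ℂ G) (g : G) : MonoidAlgebra ℂ G :=
  ee P * oo g * a * oo g⁻¹ * ee P

theorem sw_congr {a : MonoidAlgebra ℂ G} (h1 : ee P * a = a) (h2 : a * ee P = a) {g n : G}
    (hg : g ∈ C P n) : sw P a g = sw P a n := by
  obtain ⟨b, hb, b', hb', rfl⟩ := mem_C.1 hg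
  have e1 : oo b' * a = a := by
    rw [← h1, ← mul_assoc, oo_mul_ee P hb']
  have e2 : a * oo b'⁻¹ = a := by
    rw [← h2, mul_assoc, ee_mul_oo P (P.B.inv_mem hb')]
  have e3 : (b * n * b')⁻¹ = b'⁻¹ * n⁻¹ * b⁻¹ := by group
  rw [sw, sw, e3, ← oo_mul, ← oo_mul, ← oo_mul, ← oo_mul]
  calc ee P * (oo b * oo n * oo b') * a * (oo b'⁻¹ * oo n⁻¹ * oo b⁻¹) * ee P
      = (ee P * oo b) * oo n * (oo b' * a * oo b'⁻¹) * oo n⁻¹ * (oo b⁻¹ * ee P) := by
        simp only [mul_assoc]
    _ = ee P * oo n * a * oo n⁻¹ * ee P := by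
        rw [ee_mul_oo P hb, e1, e2, oo_mul_ee P (P.B.inv_mem hb)]

/-- The class sum of an element. -/
noncomputable def tildeA (a : MonoidAlgebra ℂ G) : MonoidAlgebra ℂ G := ∑ g : G, oo g * a * oo g⁻¹

theorem isClass_tilde (a : MonoidAlgebra ℂ G) : IsClassFunction G (tildeA a).coeff := by
  intro g h
  have h1 : oo h⁻¹ * tildeA a * oo h = tildeA a := by
    rw [tildeA, Finset.mul_sum, Finset.sum_mul]
    refine Eq.trans ?_ (Equiv.sum_comp (Equiv.mulLeft h⁻¹) (fun x : G => oo x * a * oo x⁻¹))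
    apply Finset.sum_congr rfl
    intro x _
    have : ((Equiv.mulLeft h⁻¹) x)⁻¹ = x⁻¹ * h := by simp
    rw [this, ← oo_mul x⁻¹ h]
    show _ = oo (h⁻¹ * x) * a * (oo x⁻¹ * oo h)
    rw [← oo_mul]
    simp only [mul_assoc]
  have h2 := congrArg (fun z => z.coeff g) h1
  simp only [oo, MonoidAlgebra.coeff_mul_single_apply, MonoidAlgebra.coeff_single_mul_apply] at h2
  simp only [inv_inv, mul_one, one_mul] at h2
  rw [← h2, mul_assoc]

theorem ee_tilde_ee (a : MonoidAlgebra ℂ G) :
    ∑ g : G, sw P a g = tildeA a * ee P := by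
  have h1 : ∑ g : G, sw P a g = ee P * tildeA a * ee P := by
    rw [tildeA, Finset.mul_sum, Finset.sum_mul]
    apply Finset.sum_congr rfl
    intro g _
    simp only [sw, mul_assoc]
  rw [h1, mul_comm_of_isClassFunction (isClass_tilde a) (ee P) |>.symm, mul_assoc, ee_idem]

/-- The Bruhat map. -/
noncomputable def wOf (g : G) : WW P :=
  QuotientGroup.mk (⟨(bruhat_exists (P := P) g).choose, (bruhat_exists (P := P) g).choose_spec.1⟩ : P.N)

theorem wOf_iff {g : G} {w : WW P} : wOf P g = w ↔ g ∈ C P (nn P w) := by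
  set n : P.N := ⟨(bruhat_exists (P := P) g).choose, (bruhat_exists (P := P) g).choose_spec.1⟩ with hn
  have hg : g ∈ C P (n : G) := (bruhat_exists (P := P) g).choose_spec.2
  have hw : wOf P g = QuotientGroup.mk n := rfl
  rw [hw]
  constructor
  · intro h
    have h1 : (QuotientGroup.mk n : WW P) = QuotientGroup.mk (Quotient.out w : P.N) := by
      rw [h, mk_nn]
    have h2 := C_eq_of_inv_mul_mem ((mk_eq _ _).1 h1)
    rw [h2] at hg
    exact hg
  · intro h
    have h2 := C_eq_of_mem_both hg h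
    have h3 := (C_eq_iff n.2 (Quotient.out w : P.N).2).1 h2
    rw [← mk_nn P w]
    exact (mk_eq _ _).2 h3

include he hes in
/-- Summing over the group through the Bruhat decomposition. -/
theorem sum_sw {a : MonoidAlgebra ℂ G} (h1 : ee P * a = a) (h2 : a * ee P = a) :
    ∑ g : G, sw P a g = ∑ w : WW P, (Nat.card (C P (nn P w)) : ℂ) • sw P a (nn P w) := by
  rw [← Finset.sum_fiberwise Finset.univ (wOf P)]
  apply Finset.sum_congr rfl
  intro w _
  have h3 : ∀ g ∈ Finset.univ.filter (fun g => wOf P g = w), sw P a g = sw P a (nn P w) := by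
    intro g hg
    exact sw_congr P h1 h2 ((wOf_iff P).1 (Finset.mem_filter.1 hg).2)
  rw [Finset.sum_congr rfl h3, Finset.sum_const, ← Nat.cast_smul_eq_nsmul ℂ]
  congr 2
  rw [Nat.card_eq_fintype_card, Fintype.card_subtype]
  congr 1
  ext g
  simp [wOf_iff]

include hq in
theorem card_C_nn (w : WW P) : Nat.card (C P (nn P w)) = q ^ LL P w * Nat.card P.B :=
  card_C hq _ _ (Quotient.out w : P.N).2 rfl

include hes hq hq0 in
/-- The Casimir operator in the group algebra. -/
theorem Phi_cas (x : HA hs (q : ℂ)) :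
    (Nat.card P.B : ℂ) • Phi P e he q hs (cas hs (q : ℂ) x) =
      tildeA (Phi P e he q hs x) * ee P := by
  have hq1 : (q : ℂ) ≠ 0 := by exact_mod_cast hq0.ne'
  set a := Phi P e he q hs x with ha
  have h1 : ee P * a = a := ee_mul_Phi P e he q hs x
  have h2 : a * ee P = a := Phi_mul_ee P e he q hs x
  have h3 : ∀ w : WW P, Th P q w * a * Th P q w⁻¹ = ((q : ℂ) ^ LL P w * (q : ℂ) ^ LL P w) • sw P a (nn P w) := by
    intro w
    have h4 : dc P (nn P w⁻¹) = dc P (nn P w)⁻¹ := by
      have h5 : w⁻¹ = QuotientGroup.mk ((Quotient.out w : P.N)⁻¹) := by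
        conv_lhs => rw [← mk_nn P w]
        rfl
      rw [h5, dc_mk]
      rfl
    have key : dc P (nn P w) * a * dc P (nn P w)⁻¹ = sw P a (nn P w) := by
      rw [dc, dc, sw]
      calc ee P * oo (nn P w) * ee P * a * (ee P * oo (nn P w)⁻¹ * ee P)
          = ee P * oo (nn P w) * (ee P * (a * ee P)) * oo (nn P w)⁻¹ * ee P := by
            simp only [mul_assoc]
        _ = _ := by rw [h2, h1]
    rw [Th, Th, h4, len_inv hs, smul_mul_assoc, mul_smul_comm, smul_mul_assoc, smul_smul, key]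
  have h4 : ∀ w, Phi P e he q hs (T hs (q : ℂ) w * x * T hs (q : ℂ) w⁻¹) =
      Th P q w * a * Th P q w⁻¹ := by
    intro w
    rw [Phi_mul P e he hes q hq hq0, Phi_mul P e he hes q hq hq0, Phi_T, Phi_T]
  rw [cas_apply, map_sum, Finset.smul_sum, ← ee_tilde_ee, sum_sw P e he hes h1 h2]
  apply Finset.sum_congr rfl
  intro w _
  have hc : (Nat.card P.B : ℂ) * ((q : ℂ) ^ LL P w)⁻¹ * ((q : ℂ) ^ LL P w * (q : ℂ) ^ LL P w) =
      ((q ^ LL P w * Nat.card P.B : ℕ) : ℂ) := by
    push_cast
    field_simp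
  rw [map_smul, h4, h3, smul_smul, smul_smul, card_C_nn P q hq, hc]

include he hes hq hq0 in
/-- The dimension of the centre of the Hecke algebra. -/
theorem finrank_Zc_eq [Fintype (IrrCharacter G)] :
    Module.finrank ℂ (Zc hs (q : ℂ)) =
      Fintype.card {χ : IrrCharacter G // yy P (χ : G → ℂ) ≠ 0} := by
  have hexist : ∀ χ : IrrCharacter G, ∃ x : HA hs (q : ℂ), Phi P e he q hs x = yy P (χ : G → ℂ) :=
    fun χ => exists_Phi P e he hes q hq0 hs (yy_bi P (isIrr_classFunction χ.2))
  choose xx hxx using hexist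
  have hinj := Phi_injective P e he q hq0 hs
  have hPhi := Phi_mul P e he hes q hq hq0 hs
  -- the elements lie in the centre
  have hZ : ∀ χ, xx χ ∈ Zc hs (q : ℂ) := by
    intro χ
    rw [mem_Zc_iff_T]
    intro a
    apply hinj
    rw [hPhi, hPhi, hxx, Phi_T, yy, ← mul_assoc, ← EE_comm (isIrr_classFunction χ.2), mul_assoc,
      mul_assoc, Th_mul_ee, ee_mul_Th]
  -- independence
  let v : {χ : IrrCharacter G // yy P (χ : G → ℂ) ≠ 0} → HA hs (q : ℂ) := fun χ => xx χ
  have hli : LinearIndependent ℂ v := by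
    rw [Fintype.linearIndependent_iff]
    intro μ hμ ψ
    have h1 : ∑ χ : {χ : IrrCharacter G // yy P (χ : G → ℂ) ≠ 0},
        μ χ • yy P ((χ : IrrCharacter G) : G → ℂ) = 0 := by
      have h0 := congrArg (Phi P e he q hs) hμ
      rw [map_sum, map_zero] at h0
      refine Eq.trans ?_ h0
      apply Finset.sum_congr rfl
      intro χ _
      rw [map_smul, hxx]
    have h2 := congrArg (fun z => EE ((ψ : IrrCharacter G) : G → ℂ) * z) h1
    simp only [mul_zero, Finset.mul_sum, mul_smul_comm] at h2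
    rw [Finset.sum_eq_single ψ] at h2
    · rw [EE_mul_yy P ψ.1.2 ψ.1.2, if_pos rfl, smul_smul] at h2
      have h3 := (smul_eq_zero.1 h2).resolve_right ψ.2
      have h4 : (Nat.card G : ℂ) / (ψ : IrrCharacter G).1 1 ≠ 0 :=
        div_ne_zero (by exact_mod_cast Nat.card_pos.ne') (irr_apply_one_ne_zero ψ.1.2)
      exact (mul_eq_zero.1 h3).resolve_right h4
    · intro χ _ hχ
      rw [EE_mul_yy P ψ.1.2 χ.1.2, if_neg, smul_zero]
      intro h5
      exact hχ (Subtype.ext (Subtype.ext h5.symm))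
    · simp
  set S := Submodule.span ℂ (Set.range v) with hS
  have hfin : Module.finrank ℂ S = Fintype.card {χ : IrrCharacter G // yy P (χ : G → ℂ) ≠ 0} :=
    finrank_span_eq_card hli
  have hSZ : S ≤ Zc hs (q : ℂ) := by
    rw [hS, Submodule.span_le]
    rintro _ ⟨χ, rfl⟩
    exact hZ χ
  have hcas : ∀ c ∈ Zc hs (q : ℂ), cas hs (q : ℂ) c ∈ S := by
    intro c _
    obtain ⟨μ, hμ⟩ := central_eq_sum (isClass_tilde (Phi P e he q hs c))
    have h1 := Phi_cas P e he hes q hq hq0 hs c
    rw [hμ, Finset.sum_mul] at h1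
    have h2 : Phi P e he q hs (cas hs (q : ℂ) c) =
        Phi P e he q hs (∑ χ, ((Nat.card P.B : ℂ)⁻¹ * μ χ) • xx χ) := by
      rw [map_sum]
      calc Phi P e he q hs (cas hs (q : ℂ) c)
          = (Nat.card P.B : ℂ)⁻¹ • ((Nat.card P.B : ℂ) • Phi P e he q hs (cas hs (q : ℂ) c)) := by
            rw [smul_smul, inv_mul_cancel₀ (card_B_ne P), one_smul]
        _ = _ := by
            rw [h1, Finset.smul_sum]
            apply Finset.sum_congr rfl
            intro χ _
            rw [map_smul, hxx, smul_mul_assoc, smul_smul]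
            rfl
    rw [hinj h2]
    apply Submodule.sum_mem
    intro χ _
    by_cases hχ : yy P (χ : G → ℂ) = 0
    · have h3 : xx χ = 0 := by
        apply hinj
        rw [hxx, hχ, map_zero]
      rw [h3, smul_zero]
      exact S.zero_mem
    · exact S.smul_mem _ (Submodule.subset_span ⟨⟨χ, hχ⟩, rfl⟩)
  have ht : ∃ r : ℝ, 0 < r ∧ (q : ℂ) = r :=
    ⟨q, by exact_mod_cast hq0, by push_cast; rfl⟩
  apply le_antisymm
  · have hg : Function.Injective ((cas hs (q : ℂ)).domRestrict (Zc hs (q : ℂ))) := by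
      rw [← LinearMap.ker_eq_bot, LinearMap.ker_eq_bot']
      rintro ⟨c, hc⟩ h
      have h1 : cas hs (q : ℂ) c = 0 := h
      exact Subtype.ext (cas_inj_center' hs _ ht ((mem_Zc hs _).1 hc) h1)
    rw [← LinearMap.finrank_range_of_inj hg, ← hfin]
    apply Submodule.finrank_mono
    rintro _ ⟨⟨c, hc⟩, rfl⟩
    exact hcas c hc
  · rw [← hfin]
    exact Submodule.finrank_mono hSZ

/-- A sum over the group of a class function against the permutation character. -/
theorem sum_fixedPoint (H : Subgroup G) {f : G → ℂ} (hf : IsClassFunction G f) :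
    ∑ g : G, fixedPointCharacter H g * f g = (Nat.card (G ⧸ H) : ℂ) * ∑ h : H, f (h : G) := by
  have h1 : ∀ g : G, fixedPointCharacter H g = ∑ ω : G ⧸ H, if g • ω = ω then (1 : ℂ) else 0 := by
    intro g
    rw [fixedPointCharacter, Nat.card_eq_fintype_card, Finset.sum_boole]
    congr 1
    rw [Fintype.card_subtype]
    congr 1
  simp only [h1, Finset.sum_mul]
  rw [Finset.sum_comm, Nat.card_eq_fintype_card, ← nsmul_eq_mul, ← Finset.card_univ,
    ← Finset.sum_const]
  apply Finset.sum_congr rfl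
  intro ω _
  obtain ⟨x, rfl⟩ := QuotientGroup.mk_surjective ω
  have h2 : ∀ g : G, (if g • (QuotientGroup.mk x : G ⧸ H) = QuotientGroup.mk x then (1 : ℂ) else 0) * f g =
      if x⁻¹ * g * x ∈ H then f (x⁻¹ * g * x) else 0 := by
    intro g
    have h3 : g • (QuotientGroup.mk x : G ⧸ H) = QuotientGroup.mk x ↔ x⁻¹ * g * x ∈ H := by
      rw [MulAction.Quotient.smul_coe, QuotientGroup.eq, smul_eq_mul]
      constructor
      · intro h
        have h4 := H.inv_mem h
        have e : ((g * x)⁻¹ * x)⁻¹ = x⁻¹ * (g * x) := by group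
        rw [e] at h4
        rwa [mul_assoc]
      · intro h
        have h4 := H.inv_mem h
        have e : (x⁻¹ * g * x)⁻¹ = (g * x)⁻¹ * x := by group
        rwa [e] at h4
    by_cases h4 : x⁻¹ * g * x ∈ H
    · rw [if_pos (h3.2 h4), if_pos h4, one_mul]
      have := hf g x⁻¹
      rw [inv_inv] at this
      exact this.symm
    · rw [if_neg (fun h => h4 (h3.1 h)), if_neg h4, zero_mul]
  simp only [h2]
  have h5 : ∀ g : G, (if x⁻¹ * g * x ∈ H then f (x⁻¹ * g * x) else 0) =
      (fun y => if y ∈ H then f y else 0) ((MulAut.conj x⁻¹).toEquiv g) := by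
    intro g
    have h6 : (MulAut.conj x⁻¹).toEquiv g = x⁻¹ * g * x := by
      simp
    simp only [h6]
  simp only [h5]
  rw [Equiv.sum_comp (MulAut.conj x⁻¹).toEquiv (fun y => if y ∈ H then f y else 0),
    ← Finset.sum_filter]
  exact Finset.sum_subtype _ (by simp) f

theorem card_quot_mul : (Nat.card (G ⧸ P.B) : ℂ) * (Nat.card P.B : ℂ) = (Nat.card G : ℂ) := by
  have := Subgroup.card_eq_card_quotient_mul_card_subgroup P.B
  rw [this]
  push_cast
  rfl

/-- The multiplicity in the permutation character. -/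
theorem classInner_perm {χ : G → ℂ} (hχ : IsIrrCharacter G χ) :
    classInner (fixedPointCharacter P.B) χ = (yy P χ).coeff 1 := by
  have hc : IsClassFunction G (fun g => (starRingEnd ℂ) (χ g)) := by
    intro g h
    simp only [isIrr_classFunction hχ g h]
  rw [classInner, sum_fixedPoint P.B hc, coeff_yy]
  have h1 : ∑ h : P.B, (starRingEnd ℂ) (χ (h : G)) = ∑ b : P.B, χ ((b : G) * (1 : G)⁻¹) := by
    refine Eq.trans ?_ (Equiv.sum_comp (Equiv.inv P.B) (fun b : P.B => χ ((b : G) * (1 : G)⁻¹)))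
    apply Finset.sum_congr rfl
    intro b _
    rw [← isIrr_inv hχ]
    simp
  rw [h1, ← card_quot_mul P]
  have h2 : (Nat.card (G ⧸ P.B) : ℂ) ≠ 0 := by exact_mod_cast Nat.card_pos.ne'
  have h3 := card_B_ne P
  field_simp

theorem isCharacter_fixed [Fintype (G ⧸ P.B)] : IsCharacter G (fixedPointCharacter P.B) :=
  Cfsg.Agent.Lib.Char.PermChar.isCharacter_perm

/-- Constituents of the permutation character. -/
theorem constituent_iff {χ : G → ℂ} (hχ : IsIrrCharacter G χ) :
    (∃ φ : G → ℂ, IsCharacter G φ ∧ fixedPointCharacter P.B = χ + φ) ↔ yy P χ ≠ 0 := by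
  constructor
  · rintro ⟨φ, hφ, h⟩ h0
    obtain ⟨m, hm⟩ := exists_nat_decomp hφ
    have h1 := classInner_perm P hχ
    rw [h0, h, Cfsg.Agent.Lib.Char.Complete.classInner_add_left, classInner_irr hχ hχ, if_pos rfl] at h1
    have h2 : classInner φ χ = (m ⟨χ, hχ⟩ : ℂ) := by
      have := classInner_sum_irr (G := G) (fun ψ => (m ψ : ℂ)) ⟨χ, hχ⟩
      rw [← this]
      congr 1
      rw [hm]
      exact Finset.sum_congr rfl (fun ψ _ => by rw [Nat.cast_smul_eq_nsmul])
    rw [h2] at h1
    simp only [MonoidAlgebra.coeff_zero, Finsupp.zero_apply] at h1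
    have h3 : ((1 + m ⟨χ, hχ⟩ : ℕ) : ℂ) = 0 := by
      push_cast
      exact h1
    have h4 : (1 + m ⟨χ, hχ⟩ : ℕ) = 0 := by exact_mod_cast h3
    omega
  · intro h
    have : Fintype (G ⧸ P.B) := Fintype.ofFinite _
    refine Cfsg.Agent.Lib.Char.Clifford.exists_char_add (isCharacter_fixed P) hχ ?_
    rw [classInner_perm P hχ]
    intro h0
    exact h (yy_eq_zero P hχ h0)

end Center

section Final

/-- The number of constituents of the permutation character on the Borel subgroup is the number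
of classes of the Weyl group. -/
theorem card_constituents {ι : Type*} (e : ι → G) (he : ∀ i, e i ∈ P.S) (hes : ∀ s ∈ P.S, ∃ i, e i = s)
    (q : ℕ) (hq : ∀ s ∈ P.S, Nat.card (C P s) = q * Nat.card P.B) (hq0 : 0 < q) :
    Nat.card {χ : IrrCharacter G // ∃ φ : G → ℂ, IsCharacter G φ ∧
      fixedPointCharacter P.B = (χ : G → ℂ) + φ} = Nat.card (ConjClasses (WW P)) := by
  have : Fintype (WW P) := Fintype.ofFinite _
  have : Fintype (IrrCharacter G) := Fintype.ofFinite _
  have : Fintype (ConjClasses (WW P)) := Fintype.ofFinite _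
  have hs := setup (P := P) e he hes
  have h1 := finrank_Zc_eq P e he hes q hq hq0 hs
  have h2 := finrank_Zc_one hs
  have h3 := finrank_Zc_const hs (t₁ := (q : ℂ)) (t₂ := (1 : ℂ))
    ⟨q, by exact_mod_cast hq0, by push_cast; rfl⟩ ⟨1, one_pos, by simp⟩
  rw [Nat.card_eq_fintype_card (α := ConjClasses (WW P)), ← h2, ← h3, h1,
    Nat.card_eq_fintype_card]
  apply Fintype.card_congr
  exact Equiv.subtypeEquivRight (fun χ => constituent_iff P χ.2)

end Final

end Cfsg.Agent.Lib.Hecke.Group
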