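import Cfsg.Agent.Lib.Hecke.Group
import Cfsg.Agent.Lib.ChevOrder.Chev
import Cfsg.Agent.Lib.ChevBN.Fast

/-!
The Weyl group of a Chevalley group as a Coxeter group with a given Coxeter matrix, and the
count of the constituents of the permutation character on the Borel subgroup.
-/

set_option autoImplicit false
set_option linter.unusedSectionVars false

namespace Cfsg.Agent.Lib.Hecke.Link

open Cfsg Cfsg.Lie Cfsg.Agent.Lib.BNPair.Basic Cfsg.Agent.Lib.BNPair.CoxeterExchange
open Cfsg.Agent.Lib.ChevOrder.BNCount Cfsg.Agent.Lib.ChevOrder.Chev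
open Cfsg.Agent.Lib.ChevBN.Table Cfsg.Agent.Lib.ChevBN.Rel Cfsg.Agent.Lib.ChevBN.Pair
open Cfsg.Agent.Lib.ChevBN.Fast Cfsg.Agent.Lib.ChevTri.Datum

/-- The exchange condition gives a Coxeter group, for a matrix of the orders of the products. -/
theorem coxeter_equiv {W ι : Type*} [Group W] {f : ι → W} {L : W → ℕ} (hs : Setup f L)
    (M : CoxeterMatrix ι) (hM : ∀ i j, M i j = orderOf (f i * f j)) : Nonempty (W ≃* M.Group) := by
  have hlift : M.IsLiftable f := by
    intro i j
    rw [hM]
    exact pow_orderOf_eq_one _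
  let ψ : M.Group →* W := M.toCoxeterSystem.lift ⟨f, hlift⟩
  have hψ : ∀ i, ψ (M.simple i) = f i := fun i =>
    M.toCoxeterSystem.lift_apply_simple hlift i
  obtain ⟨φ, hφ⟩ := exists_hom hs (g := M.simple)
    (fun i => M.toCoxeterSystem.simple_mul_simple_self i)
    (fun i j => by
      rw [← hM]
      exact M.toCoxeterSystem.simple_mul_simple_pow i j)
  have h1 : ψ.comp φ = MonoidHom.id W := by
    ext w
    obtain ⟨l, rfl, -⟩ := hs.ex w
    induction l with
    | nil => simp
    | cons i l ih =>
      simp only [MonoidHom.comp_apply, MonoidHom.id_apply] at ih ⊢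
      rw [pr_cons, map_mul, map_mul, hφ, hψ, ih]
  have h2 : φ.comp ψ = MonoidHom.id M.Group := by
    apply M.toCoxeterSystem.ext_simple
    intro i
    simp only [MonoidHom.comp_apply, MonoidHom.id_apply, CoxeterMatrix.toCoxeterSystem_simple]
    rw [hψ, hφ]
  exact ⟨MonoidHom.toMulEquiv φ ψ h1 h2⟩

/-- Isomorphic groups have as many classes. -/
theorem card_conjClasses_eq {A B : Type*} [Group A] [Group B] (e : A ≃* B) :
    Nat.card (ConjClasses A) = Nat.card (ConjClasses B) := by
  refine Nat.card_congr
    { toFun := ConjClasses.map e.toMonoidHom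
      invFun := ConjClasses.map e.symm.toMonoidHom
      left_inv := ?_
      right_inv := ?_ }
  · intro c
    obtain ⟨a, rfl⟩ := ConjClasses.mk_surjective c
    show ConjClasses.mk (e.symm (e a)) = ConjClasses.mk a
    rw [e.symm_apply_apply]
  · intro c
    obtain ⟨a, rfl⟩ := ConjClasses.mk_surjective c
    show ConjClasses.mk (e (e.symm a)) = ConjClasses.mk a
    rw [e.apply_symm_apply]

variable {D : ChevalleyDatum} {F : Type*} [Field F] {η : ℕ → ℕ → ℤ}
variable (hR : Sys D F η) (hT : Tbl D)

/-- The action of the Weyl group on the roots is faithful. -/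
theorem σW_injective : Function.Injective (σW hR hT) := by
  rw [injective_iff_map_eq_one]
  intro w hw
  by_contra hne
  have hs := setupW hR hT
  obtain ⟨l, hl, hlen⟩ := hs.ex w
  cases l with
  | nil =>
    apply hne
    rw [← hl]
    rfl
  | cons i l =>
    have h1 : fW hR hT i * w = pr (fW hR hT) l := by
      rw [← hl, pr_cons, ← mul_assoc, hs.sq, one_mul]
    have h2 : LL (pair hR hT) (fW hR hT i * w) < LL (pair hR hT) w := by
      rw [h1]
      have := hs.le l
      simp only [List.length_cons] at hlen
      omega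
    have h3 := hK hR hT i w h2
    rw [hw] at h3
    exact h3 (hT.simple_pos i i.2)

/-- The order of a product of simple reflections is read off the roots. -/
theorem orderOf_fW (i j : Fin D.rank) :
    orderOf (fW hR hT i * fW hR hT j) = orderOf (Tbl.wPerm hT i.2 * Tbl.wPerm hT j.2) := by
  rw [← orderOf_injective (σW hR hT) (σW_injective hR hT), map_mul, σW_fW, σW_fW]

/-! ### A check of the orders through the packed tables -/

/-- The action of a product of two reflections through the packed table. -/
def stp (T : FastTab) (D : ChevalleyDatum) (i j s : ℕ) : ℕ := T.W D i (T.W D j s)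

/-- Iteration. -/
def itr (f : ℕ → ℕ) : ℕ → ℕ → ℕ
  | 0, s => s
  | k + 1, s => f (itr f k s)

/-- The check that the order of the product of two reflections is `k`. -/
def chk1 (T : FastTab) (D : ChevalleyDatum) (i j k : ℕ) : Bool :=
  Nat.blt 0 k && (List.range D.nroots).all (fun s => Nat.beq (itr (stp T D i j) k s) s) &&
    (List.range (k - 1)).all fun t =>
      (List.range D.nroots).any fun s => !Nat.beq (itr (stp T D i j) (t + 1) s) s

/-- The check for a Coxeter matrix. -/
def chkM (T : FastTab) (D : ChevalleyDatum) {n : ℕ} (M : CoxeterMatrix (Fin n)) : Bool :=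
  (List.finRange n).all fun i => (List.finRange n).all fun j => chk1 T D i j (M i j)

variable {T : FastTab}

theorem pow_val (hW : ∀ i < D.rank, chkW T D i = true) {i j : ℕ} (hi : i < D.rank) (hj : j < D.rank)
    (k : ℕ) (s : Fin D.nroots) :
    (((Tbl.wPerm hT hi * Tbl.wPerm hT hj) ^ k) s).val = itr (stp T D i j) k s.val := by
  have hw : ∀ {i s : ℕ}, i < D.rank → s < D.nroots → D.reflectRoot i s = T.W D i s := by
    intro i s hi hs
    have := List.all_eq_true.mp (hW i hi) s (List.mem_range.mpr hs)
    simpa using this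
  induction k with
  | zero => rfl
  | succ k ih =>
    rw [pow_succ', Equiv.Perm.mul_apply, Equiv.Perm.mul_apply, Tbl.wPerm_val, Tbl.wPerm_val, itr, ← ih,
      stp, hw hj (Fin.isLt _), hw hi]
    rw [← hw hj (Fin.isLt _)]
    exact hT.w_lt j hj _ (Fin.isLt _)

theorem orderOf_of_chk (hW : ∀ i < D.rank, chkW T D i = true) {i j k : ℕ} (hi : i < D.rank)
    (hj : j < D.rank) (h : chk1 T D i j k = true) :
    orderOf (Tbl.wPerm hT hi * Tbl.wPerm hT hj) = k := by
  simp only [chk1, Bool.and_eq_true, List.all_eq_true, List.mem_range, List.any_eq_true,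
    Bool.not_eq_true'] at h
  obtain ⟨⟨h0, h1⟩, h2⟩ := h
  have h0' : 0 < k := Nat.le_of_ble_eq_true h0
  rw [orderOf_eq_iff h0']
  constructor
  · ext s
    rw [pow_val hT hW hi hj]
    exact Nat.eq_of_beq_eq_true (h1 s s.isLt)
  · intro m hm hm0 he
    obtain ⟨s, hs, hb⟩ := h2 (m - 1) (by omega)
    have e : m - 1 + 1 = m := by omega
    rw [e] at hb
    have h3 := pow_val hT hW hi hj m ⟨s, hs⟩
    rw [he] at h3
    simp only [Equiv.Perm.coe_one, id_eq] at h3
    rw [← h3] at hb
    simp at hb

include hR hT in
/-- The number of constituents of the permutation character on the Borel subgroup. -/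
theorem card_constituents_chev [Finite F] {n : ℕ} (hn : D.rank = n) (M : CoxeterMatrix (Fin n))
    (hW : ∀ i < D.rank, chkW T D i = true) (hM : chkM T D M = true) :
    Nat.card {χ : IrrCharacter ↥(D.group F) // ∃ φ : ↥(D.group F) → ℂ,
      IsCharacter ↥(D.group F) φ ∧
        fixedPointCharacter ((D.borelSubgroup F).subgroupOf (D.group F)) =
          (χ : ↥(D.group F) → ℂ) + φ} = Nat.card (ConjClasses M.Group) := by
  subst hn
  have hM' : ∀ i j, M i j = orderOf (fW hR hT i * fW hR hT j) := by
    intro i j
    have h1 := List.all_eq_true.mp hM i (List.mem_finRange i)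
    have h2 := List.all_eq_true.mp h1 j (List.mem_finRange j)
    rw [orderOf_fW, orderOf_of_chk hT hW i.2 j.2 h2]
  obtain ⟨e⟩ := coxeter_equiv (setupW hR hT) M hM'
  rw [← card_conjClasses_eq e]
  have : Finite ↥(D.group F) := inferInstance
  have : Fintype ↥(D.group F) := Fintype.ofFinite _
  exact Cfsg.Agent.Lib.Hecke.Group.card_constituents (pair hR hT) (ee hR hT) (ee_mem hR hT)
    (ee_surj hR hT) (Nat.card F) (fun s hs => card_C_S hR hT hs) Nat.card_pos

end Cfsg.Agent.Lib.Hecke.Link
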